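import Mathlib

set_option autoImplicit false
open scoped commutatorElement

/-!
Helper library (helper1): commutator/power identities in groups of class two.
-/

namespace Cfsg.Agent.Helper1

theorem comm_pow {G : Type*} [Group G] (a b : G) (hc : ∀ x y : G, ⁅x, y⁆ ∈ Subgroup.center G)
    (n : ℕ) : ⁅a ^ n, b⁆ = ⁅a, b⁆ ^ n := by
  induction n with
  | zero => simp
  | succ n ih =>
    have h1 : ⁅a ^ (n + 1), b⁆ = a * ⁅a ^ n, b⁆ * a⁻¹ * ⁅a, b⁆ := by
      rw [commutatorElement_def, commutatorElement_def, commutatorElement_def, pow_succ']; group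
    have h2 : a * ⁅a ^ n, b⁆ = ⁅a ^ n, b⁆ * a := Subgroup.mem_center_iff.mp (hc (a ^ n) b) a
    rw [h1, h2, mul_inv_cancel_right, ih, pow_succ]

theorem mul_pow_aux {G : Type*} [Group G] (x y c : G) (hc : ∀ g : G, g * c = c * g)
    (h : ∀ n : ℕ, y ^ n * x = x * y ^ n * c ^ n) (n : ℕ) :
    (x * y) ^ n = x ^ n * y ^ n * c ^ (∑ i ∈ Finset.range n, i) := by
  have hc' : ∀ (k : ℕ) (g : G), g * c ^ k = c ^ k * g := fun k g =>
    ((show Commute g c from hc g).pow_right k).eq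
  induction n with
  | zero => simp
  | succ n ih =>
    rw [pow_succ (x * y), ih, Finset.sum_range_succ, pow_add c]
    calc x ^ n * y ^ n * c ^ (∑ i ∈ Finset.range n, i) * (x * y)
        = x ^ n * y ^ n * ((x * y) * c ^ (∑ i ∈ Finset.range n, i)) := by
          rw [mul_assoc (x ^ n * y ^ n), ← hc' _ (x * y)]
      _ = x ^ n * (y ^ n * x) * y * c ^ (∑ i ∈ Finset.range n, i) := by group
      _ = x ^ n * (x * y ^ n * c ^ n) * y * c ^ (∑ i ∈ Finset.range n, i) := by rw [h n]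
      _ = x ^ n * x * y ^ n * (c ^ n * y) * c ^ (∑ i ∈ Finset.range n, i) := by group
      _ = x ^ n * x * y ^ n * (y * c ^ n) * c ^ (∑ i ∈ Finset.range n, i) := by rw [hc' n y]
      _ = x ^ (n + 1) * y ^ (n + 1) * (c ^ (∑ i ∈ Finset.range n, i) * c ^ n) := by
          rw [pow_succ, pow_succ, hc' n (c ^ (∑ i ∈ Finset.range n, i))]; group

theorem mul_pow_odd {G : Type*} [Group G] (p : ℕ) (hpp : p.Prime) (hp : p ≠ 2)
    (hc : ∀ a b : G, ⁅a, b⁆ ∈ Subgroup.center G) (x y : G) (hcp : ⁅y, x⁆ ^ p = 1) :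
    (x * y) ^ p = x ^ p * y ^ p := by
  have hA : ∀ n : ℕ, y ^ n * x = x * y ^ n * ⁅y, x⁆ ^ n := by
    intro n
    have hcomm : Commute (⁅y, x⁆ ^ n) (x * y ^ n) :=
      (show Commute ⁅y, x⁆ (x * y ^ n) from
        (Subgroup.mem_center_iff.mp (hc y x) (x * y ^ n)).symm).pow_left n
    calc y ^ n * x = ⁅y ^ n, x⁆ * (x * y ^ n) := by rw [commutatorElement_def]; group
      _ = ⁅y, x⁆ ^ n * (x * y ^ n) := by rw [comm_pow y x hc n]
      _ = x * y ^ n * ⁅y, x⁆ ^ n := hcomm.eq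
  rw [mul_pow_aux x y ⁅y, x⁆ (fun g => Subgroup.mem_center_iff.mp (hc y x) g) hA p]
  have hdvd : p ∣ ∑ i ∈ Finset.range p, i := by
    have h2' := Finset.sum_range_id_mul_two p
    have hcop : Nat.Coprime p 2 := (Nat.coprime_primes hpp Nat.prime_two).mpr hp
    exact hcop.dvd_of_dvd_mul_right (by rw [h2']; exact dvd_mul_right p (p - 1))
  obtain ⟨k, hk⟩ := hdvd
  rw [hk, pow_mul, hcp, one_pow, mul_one]

end Cfsg.Agent.Helper1
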