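import Mathlib

set_option autoImplicit false

namespace Cfsg.Agent.Helper1.FieldInc

open Finset

theorem line_card {F : Type*} [Field F] [Fintype F] [DecidableEq F] (x y : F) (hx : x ≠ 0) :
    #{l : F × F | l.1 * x + l.2 * y = 2} = Fintype.card F := by
  rw [← card_univ (α := F)]
  symm
  apply card_bij (fun (β : F) _ => ((2 - β * y) / x, β))
  · intro β _
    simp only [mem_filter, mem_univ, true_and]
    rw [div_mul_cancel₀ _ hx]
    ring
  · intro β _ β' _ h
    exact (Prod.ext_iff.1 h).2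
  · intro l hl
    simp only [mem_filter, mem_univ, true_and] at hl
    refine ⟨l.2, mem_univ _, ?_⟩
    refine Prod.ext ?_ rfl
    show (2 - l.2 * y) / x = l.1
    rw [div_eq_iff hx]
    linear_combination -hl

/-- Point–line incidence bound for a multiplicative subgroup `U` of a finite field:
the number `S` of `a ∈ U` with `2 - a ∈ U` satisfies `(|F| S - |U|^2)^2 ≤ |F|^3`. -/
theorem incidence {F : Type*} [Field F] [Fintype F] [DecidableEq F] (U : Finset F)
    (h0 : (0 : F) ∉ U) (hmul : ∀ a ∈ U, ∀ b ∈ U, a * b ∈ U) (hinv : ∀ a ∈ U, a⁻¹ ∈ U)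
    (h2 : (2 : F) ≠ 0) (hne : U.Nonempty) :
    ((Fintype.card F : ℤ) * (#{a ∈ U | 2 - a ∈ U} : ℤ) - (#U : ℤ) ^ 2) ^ 2
      ≤ (Fintype.card F : ℤ) ^ 3 := by
  classical
  set Q := Fintype.card F with hQ
  set P : Finset (F × F) := U ×ˢ U with hP
  set S := #{a ∈ U | 2 - a ∈ U} with hS
  let I : F × F → ℕ := fun l => #{z ∈ P | l.1 * z.1 + l.2 * z.2 = 2}
  have hPcard : #P = #U ^ 2 := by rw [hP, card_product, sq]
  have hU0 : ∀ a ∈ U, a ≠ 0 := fun a ha h => h0 (h ▸ ha)
  have hline : ∀ z ∈ P, #{l : F × F | l.1 * z.1 + l.2 * z.2 = 2} = Q := by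
    intro z hz
    rw [hP, mem_product] at hz
    exact line_card z.1 z.2 (hU0 _ hz.1)
  have hI : ∀ l : F × F, I l = ∑ z ∈ P, (if l.1 * z.1 + l.2 * z.2 = 2 then 1 else 0) :=
    fun l => card_filter _ _
  have hA : ∑ l : F × F, I l = #P * Q := by
    calc ∑ l : F × F, I l
        = ∑ l : F × F, ∑ z ∈ P, (if l.1 * z.1 + l.2 * z.2 = 2 then 1 else 0) :=
          sum_congr rfl (fun l _ => hI l)
      _ = ∑ z ∈ P, ∑ l : F × F, (if l.1 * z.1 + l.2 * z.2 = 2 then 1 else 0) := sum_comm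
      _ = ∑ z ∈ P, Q := by
          apply sum_congr rfl
          intro z hz
          rw [← hline z hz, card_filter]
      _ = #P * Q := by rw [sum_const, smul_eq_mul]
  have hI2 : ∀ l : F × F, (I l) ^ 2 = ∑ z ∈ P, ∑ z' ∈ P,
      (if l.1 * z.1 + l.2 * z.2 = 2 ∧ l.1 * z'.1 + l.2 * z'.2 = 2 then 1 else 0) := by
    intro l
    rw [sq, hI l, sum_mul_sum]
    apply sum_congr rfl
    intro z _
    apply sum_congr rfl
    intro z' _
    by_cases h1 : l.1 * z.1 + l.2 * z.2 = 2 <;> by_cases h2 : l.1 * z'.1 + l.2 * z'.2 = 2 <;>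
      simp [h1, h2]
  have hB : ∑ l : F × F, (I l) ^ 2 ≤ Q * #P + #P ^ 2 := by
    calc ∑ l : F × F, (I l) ^ 2
        = ∑ l : F × F, ∑ z ∈ P, ∑ z' ∈ P,
            (if l.1 * z.1 + l.2 * z.2 = 2 ∧ l.1 * z'.1 + l.2 * z'.2 = 2 then 1 else 0) :=
          sum_congr rfl (fun l _ => hI2 l)
      _ = ∑ z ∈ P, ∑ l : F × F, ∑ z' ∈ P,
            (if l.1 * z.1 + l.2 * z.2 = 2 ∧ l.1 * z'.1 + l.2 * z'.2 = 2 then 1 else 0) := sum_comm
      _ = ∑ z ∈ P, ∑ z' ∈ P, ∑ l : F × F,
            (if l.1 * z.1 + l.2 * z.2 = 2 ∧ l.1 * z'.1 + l.2 * z'.2 = 2 then 1 else 0) := by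
          apply sum_congr rfl
          intro z _
          exact sum_comm
      _ ≤ ∑ z ∈ P, ∑ z' ∈ P, ((if z = z' then Q else 0) + 1) := by
          apply sum_le_sum
          intro z hz
          apply sum_le_sum
          intro z' hz'
          rw [← card_filter]
          have hx : z.1 ≠ 0 := by
            rw [hP, mem_product] at hz
            exact hU0 _ hz.1
          by_cases hzz : z = z'
          · subst hzz
            rw [if_pos rfl]
            calc #{l : F × F | l.1 * z.1 + l.2 * z.2 = 2 ∧ l.1 * z.1 + l.2 * z.2 = 2}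
                ≤ #{l : F × F | l.1 * z.1 + l.2 * z.2 = 2} := by
                  apply card_le_card
                  intro l hl
                  simp only [mem_filter, mem_univ, true_and] at hl ⊢
                  exact hl.1
              _ = Q := hline z hz
              _ ≤ Q + 1 := Nat.le_succ _
          · rw [if_neg hzz, zero_add]
            apply card_le_one.2
            intro l hl l' hl'
            simp only [mem_filter, mem_univ, true_and] at hl hl'
            obtain ⟨e1, e2⟩ := hl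
            obtain ⟨e1', e2'⟩ := hl'
            have hD : z.2 * z'.1 - z'.2 * z.1 ≠ 0 := by
              intro hD
              have hb : l.2 * (z.2 * z'.1 - z'.2 * z.1) = 2 * (z'.1 - z.1) := by
                linear_combination z'.1 * e1 - z.1 * e2
              rw [hD, mul_zero] at hb
              have hxx : z'.1 = z.1 := by
                rcases mul_eq_zero.1 hb.symm with h | h
                · exact absurd h h2
                · exact sub_eq_zero.1 h
              have hyy : z.2 = z'.2 := by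
                rw [hxx] at hD
                have : (z.2 - z'.2) * z.1 = 0 := by linear_combination hD
                rcases mul_eq_zero.1 this with h | h
                · exact sub_eq_zero.1 h
                · exact absurd h hx
              exact hzz (Prod.ext hxx.symm hyy)
            have hb : l.2 * (z.2 * z'.1 - z'.2 * z.1) = l'.2 * (z.2 * z'.1 - z'.2 * z.1) := by
              linear_combination z'.1 * e1 - z.1 * e2 - z'.1 * e1' + z.1 * e2'
            have hb2 : l.2 = l'.2 := mul_right_cancel₀ hD hb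
            have ha : l.1 * z.1 = l'.1 * z.1 := by
              rw [hb2] at e1
              linear_combination e1 - e1'
            exact Prod.ext (mul_right_cancel₀ hx ha) hb2
      _ = ∑ z ∈ P, (Q + #P) := by
          apply sum_congr rfl
          intro z hz
          rw [sum_add_distrib, sum_ite_eq, if_pos hz, sum_const, smul_eq_mul, mul_one]
      _ = Q * #P + #P ^ 2 := by
          rw [sum_const, smul_eq_mul]
          ring
  have hA' : ∑ l : F × F, (I l : ℤ) = (#P : ℤ) * Q := by exact_mod_cast hA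
  have hB' : ∑ l : F × F, (I l : ℤ) ^ 2 ≤ (Q : ℤ) * #P + (#P : ℤ) ^ 2 := by exact_mod_cast hB
  have hvar : ∑ l : F × F, ((Q : ℤ) * (I l : ℤ) - (#P : ℤ)) ^ 2 ≤ (Q : ℤ) ^ 3 * #P := by
    have e : ∀ l : F × F, ((Q : ℤ) * (I l : ℤ) - (#P : ℤ)) ^ 2
        = (Q : ℤ) ^ 2 * ((I l : ℤ)) ^ 2 - 2 * Q * #P * (I l : ℤ) + (#P : ℤ) ^ 2 := by
      intro l; ring
    calc ∑ l : F × F, ((Q : ℤ) * (I l : ℤ) - (#P : ℤ)) ^ 2
        = ∑ l : F × F, ((Q : ℤ) ^ 2 * ((I l : ℤ)) ^ 2 - 2 * Q * #P * (I l : ℤ) + (#P : ℤ) ^ 2) :=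
          sum_congr rfl (fun l _ => e l)
      _ = (Q : ℤ) ^ 2 * ∑ l : F × F, ((I l : ℤ)) ^ 2 - 2 * Q * #P * ∑ l : F × F, (I l : ℤ)
            + (Q : ℤ) ^ 2 * (#P : ℤ) ^ 2 := by
          rw [sum_add_distrib, sum_sub_distrib, ← mul_sum, ← mul_sum, sum_const, card_univ,
            Fintype.card_prod, nsmul_eq_mul]
          push_cast
          ring
      _ ≤ (Q : ℤ) ^ 3 * #P := by
          rw [hA']
          nlinarith [mul_le_mul_of_nonneg_left hB' (sq_nonneg (Q : ℤ))]
  have hspec : ∀ l ∈ P, I l = S := by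
    intro l hl
    rw [hP, mem_product] at hl
    obtain ⟨hu, hv⟩ := hl
    have hl1 := hU0 _ hu
    have hl2 := hU0 _ hv
    show #{z ∈ P | l.1 * z.1 + l.2 * z.2 = 2} = #{a ∈ U | 2 - a ∈ U}
    apply card_bij (fun z _ => l.1 * z.1)
    · intro z hz
      simp only [hP, mem_filter, mem_product] at hz ⊢
      obtain ⟨⟨hz1, hz2⟩, he⟩ := hz
      refine ⟨hmul _ hu _ hz1, ?_⟩
      have : 2 - l.1 * z.1 = l.2 * z.2 := by rw [← he]; ring
      rw [this]
      exact hmul _ hv _ hz2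
    · intro z hz z' hz' h
      simp only [hP, mem_filter, mem_product] at hz hz'
      have h' : l.1 * z.1 = l.1 * z'.1 := h
      have e1 : z.1 = z'.1 := mul_left_cancel₀ hl1 h'
      have e2 : z.2 = z'.2 := by
        apply mul_left_cancel₀ hl2
        linear_combination hz.2 - hz'.2 - h'
      exact Prod.ext e1 e2
    · intro a ha
      simp only [mem_filter] at ha
      refine ⟨(l.1⁻¹ * a, l.2⁻¹ * (2 - a)), ?_, ?_⟩
      · simp only [hP, mem_filter, mem_product]
        refine ⟨⟨hmul _ (hinv _ hu) _ ha.1, hmul _ (hinv _ hv) _ ha.2⟩, ?_⟩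
        rw [← mul_assoc, ← mul_assoc, mul_inv_cancel₀ hl1, mul_inv_cancel₀ hl2]
        ring
      · show l.1 * (l.1⁻¹ * a) = a
        rw [← mul_assoc, mul_inv_cancel₀ hl1, one_mul]
  have hPpos : (0 : ℤ) < #P := by
    have : 0 < #P := card_pos.2 (by rw [hP]; exact hne.product hne)
    exact_mod_cast this
  have hfin : (#P : ℤ) * ((Q : ℤ) * S - #P) ^ 2 ≤ (#P : ℤ) * (Q : ℤ) ^ 3 := by
    have hc : ∀ l ∈ P, ((Q : ℤ) * (I l : ℤ) - (#P : ℤ)) ^ 2 = ((Q : ℤ) * S - #P) ^ 2 :=
      fun l hl => by rw [hspec l hl]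
    calc (#P : ℤ) * ((Q : ℤ) * S - #P) ^ 2
        = ∑ l ∈ P, ((Q : ℤ) * (I l : ℤ) - (#P : ℤ)) ^ 2 := by
          rw [sum_congr rfl hc, sum_const, nsmul_eq_mul]
      _ ≤ ∑ l : F × F, ((Q : ℤ) * (I l : ℤ) - (#P : ℤ)) ^ 2 :=
          sum_le_sum_of_subset_of_nonneg (subset_univ _) (fun _ _ _ => sq_nonneg _)
      _ ≤ (Q : ℤ) ^ 3 * #P := hvar
      _ = (#P : ℤ) * (Q : ℤ) ^ 3 := mul_comm _ _
  have hfin2 := le_of_mul_le_mul_left hfin hPpos
  rw [hPcard] at hfin2
  push_cast at hfin2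
  exact hfin2

/-- The final numeric contradiction. -/
theorem arith (p q n : ℕ) (hp : 3 ≤ p) (hq : 5 ≤ q) (hn : p ^ q ≤ n * (p - 1) + 1)
    (h : (((p ^ q : ℕ) : ℤ) - (n : ℤ) ^ 2) ^ 2 ≤ ((p ^ q : ℕ) : ℤ) ^ 3) : False := by
  obtain ⟨m, hQ, hm3⟩ : ∃ m, p ^ q = p ^ 2 * m ∧ p ^ 3 ≤ m := by
    refine ⟨p ^ (q - 2), ?_, ?_⟩
    · rw [← pow_add]; congr 1; omega
    · exact Nat.pow_le_pow_right (by omega) (by omega)
  rw [hQ] at h hn
  have hP : (3 : ℤ) ≤ p := by exact_mod_cast hp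
  have hM : (p : ℤ) ^ 3 ≤ m := by exact_mod_cast hm3
  have hn' : (p : ℤ) ^ 2 * m ≤ n * ((p : ℤ) - 1) + 1 := by
    have h1 : ((p - 1 : ℕ) : ℤ) = (p : ℤ) - 1 := by
      rw [Nat.cast_sub (by omega)]; simp
    rw [← h1]
    exact_mod_cast hn
  push_cast at h
  generalize (p : ℤ) = P at *
  generalize (m : ℤ) = M at *
  generalize (n : ℤ) = Nn at *
  have hP0 : 0 < P := by linarith
  have hPsq : (9 : ℤ) ≤ P ^ 2 := by nlinarith
  have hPP : 3 * P ≤ P ^ 2 := by nlinarith
  have hP3 : 3 * P ^ 2 ≤ P ^ 3 := by nlinarith [mul_nonneg (sq_nonneg P) (sub_nonneg.2 hP)]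
  have hM27 : (27 : ℤ) ≤ M := by linarith
  have hM0 : 0 < M := by linarith
  have hMP : P ^ 2 + 2 ≤ M := by linarith
  have hPM : 0 < P ^ 2 * M := mul_pos (pow_pos hP0 2) hM0
  have h1 : 2 ≤ Nn := by
    by_contra hc
    push Not at hc
    have hc' : Nn ≤ 1 := by linarith
    have h3 : Nn * (P - 1) ≤ 1 * (P - 1) := mul_le_mul_of_nonneg_right hc' (by linarith)
    have h4 := mul_le_mul_of_nonneg_left hM27 (sq_nonneg P)
    linarith
  have h2 : P ^ 2 * M + 1 ≤ Nn * P := by
    have : Nn * (P - 1) = Nn * P - Nn := by ring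
    linarith
  have h3 : P ^ 2 * M ^ 2 + 1 ≤ Nn ^ 2 := by
    have hsq := pow_le_pow_left₀ (by linarith : (0 : ℤ) ≤ P ^ 2 * M + 1) h2 2
    have e1 : (Nn * P) ^ 2 = P ^ 2 * Nn ^ 2 := by ring
    have e2 : (P ^ 2 * M + 1) ^ 2 = P ^ 2 * (P ^ 2 * M ^ 2) + 2 * (P ^ 2 * M) + 1 := by ring
    have h5 : P ^ 2 * (P ^ 2 * M ^ 2) < P ^ 2 * Nn ^ 2 := by linarith
    have h6 := lt_of_mul_lt_mul_left h5 (sq_nonneg P)
    linarith
  have h4 : P ^ 2 * M * (M - 1) + 1 ≤ Nn ^ 2 - P ^ 2 * M := by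
    have : P ^ 2 * M * (M - 1) = P ^ 2 * M ^ 2 - P ^ 2 * M := by ring
    linarith
  have hb : 0 ≤ P ^ 2 * M * (M - 1) := mul_nonneg hPM.le (by linarith)
  have h5 : (P ^ 2 * M * (M - 1) + 1) ^ 2 ≤ (Nn ^ 2 - P ^ 2 * M) ^ 2 :=
    pow_le_pow_left₀ (by linarith) h4 2
  have h6 : P ^ 2 * M ≤ (M - 1) ^ 2 := by
    have h7 := mul_nonneg hM0.le (by linarith [hMP] : (0 : ℤ) ≤ M - 2 - P ^ 2)
    have e : (M - 1) ^ 2 = M * (M - 2 - P ^ 2) + 1 + P ^ 2 * M := by ring
    linarith
  have h7 : (P ^ 2 * M) ^ 3 < (P ^ 2 * M * (M - 1) + 1) ^ 2 := by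
    have a := mul_le_mul_of_nonneg_left h6 (sq_nonneg (P ^ 2 * M))
    have e : (P ^ 2 * M * (M - 1) + 1) ^ 2
        = (P ^ 2 * M) ^ 2 * (M - 1) ^ 2 + 2 * (P ^ 2 * M * (M - 1)) + 1 := by ring
    have e' : (P ^ 2 * M) ^ 3 = (P ^ 2 * M) ^ 2 * (P ^ 2 * M) := by ring
    linarith
  have h8 : (P ^ 2 * M - Nn ^ 2) ^ 2 = (Nn ^ 2 - P ^ 2 * M) ^ 2 := by ring
  linarith

/-- The kernel of a multiplicative map from a finite field to a finite field is large. -/
theorem card_ker_bound {F K : Type*} [Field F] [Fintype F] [DecidableEq F] [Field K] [Fintype K]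
    [DecidableEq K] (N : F →* K) :
    Fintype.card F ≤ #{x : F | N x = 1} * (Fintype.card K - 1) + 1 := by
  classical
  have hne : ∀ x : F, x ≠ 0 → N x ≠ 0 := by
    intro x hx h
    have : N x * N x⁻¹ = 1 := by rw [← map_mul, mul_inv_cancel₀ hx, map_one]
    rw [h, zero_mul] at this
    exact zero_ne_one this
  have h1 : #(univ.erase (0 : F)) ≤ #{x : F | N x = 1} * #((univ.erase (0 : F)).image N) := by
    apply card_le_mul_card_image
    intro μ hμ
    obtain ⟨x₀, hx₀, rfl⟩ := mem_image.1 hμ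
    have hx0 : x₀ ≠ 0 := (mem_erase.1 hx₀).1
    apply card_le_card_of_injOn (fun x => x * x₀⁻¹)
    · intro x hx
      simp only [coe_filter, Set.mem_ofPred_eq, mem_erase, mem_univ, and_true, true_and] at hx ⊢
      have : N x₀ * N x₀⁻¹ = 1 := by rw [← map_mul, mul_inv_cancel₀ hx0, map_one]
      rw [map_mul, hx.2, this]
    · intro x _ y _ h
      exact mul_right_cancel₀ (inv_ne_zero hx0) h
  have h2 : #((univ.erase (0 : F)).image N) ≤ #(univ.erase (0 : K)) := by
    apply card_le_card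
    intro μ hμ
    obtain ⟨x, hx, rfl⟩ := mem_image.1 hμ
    exact mem_erase.2 ⟨hne x (mem_erase.1 hx).1, mem_univ _⟩
  rw [card_erase_of_mem (mem_univ _), card_univ] at h1 h2
  have h3 := h1.trans (Nat.mul_le_mul_left _ h2)
  omega

/-- Some cubic `X^3 - s X^2 + (2s-3) X - 1` has no root in `ZMod p`. -/
theorem exists_cubic (p : ℕ) [Fact p.Prime] :
    ∃ s : ZMod p, ∀ r : ZMod p, r ^ 3 - s * r ^ 2 + (2 * s - 3) * r - 1 ≠ 0 := by
  by_contra hcon
  push Not at hcon
  choose r hr using hcon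
  have hinj : Function.Injective r := by
    intro s s' h
    have e1 := hr s
    have e2 := hr s'
    rw [← h] at e2
    have h0 : (s - s') * (r s * (2 - r s)) = 0 := by linear_combination e1 - e2
    rcases mul_eq_zero.1 h0 with h1 | h1
    · exact sub_eq_zero.1 h1
    · exfalso
      rcases mul_eq_zero.1 h1 with h2 | h2
      · rw [h2] at e1
        have : (1 : ZMod p) = 0 := by linear_combination -e1
        exact one_ne_zero this
      · have h3 : r s = 2 := by linear_combination -h2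
        rw [h3] at e1
        have : (1 : ZMod p) = 0 := by linear_combination e1
        exact one_ne_zero this
  obtain ⟨s, hs⟩ := (Finite.injective_iff_surjective.1 hinj) 0
  have e1 := hr s
  rw [hs] at e1
  have : (1 : ZMod p) = 0 := by linear_combination -e1
  exact one_ne_zero this

end Cfsg.Agent.Helper1.FieldInc
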