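import Cfsg.Agent.Helper1.Frob
import Mathlib

set_option autoImplicit false
open Pointwise

/-!
Helper library (helper1): groups with Klein four Sylow 2-subgroups, fusion of involutions.
-/

namespace Cfsg.Agent.Helper1

theorem pow_fix {G : Type*} [Group G] (ψ : MulAut G) (a : G) (h : ψ a = a) :
    ∀ j : ℕ, (ψ ^ j) a = a := by
  intro j
  induction j with
  | zero => simp
  | succ j ih => rw [pow_succ, MulAut.mul_apply, h, ih]

section
variable {G : Type*} [Group G] [Finite G]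

theorem klein_comm (P : Sylow 2 G) (hP : IsKleinFour (P : Subgroup G)) :
    ∀ x ∈ (P : Subgroup G), ∀ y ∈ (P : Subgroup G), x * y = y * x := by
  intro x hx y hy
  have := mul_comm_of_exponent_two (IsKleinFour.exponent_two (G := (P : Subgroup G)))
    (⟨x, hx⟩ : (P : Subgroup G)) ⟨y, hy⟩
  exact congrArg Subtype.val this

theorem klein_sq (P : Sylow 2 G) (hP : IsKleinFour (P : Subgroup G)) :
    ∀ x ∈ (P : Subgroup G), x * x = 1 := by
  intro x hx
  have := IsKleinFour.mul_self (⟨x, hx⟩ : (P : Subgroup G))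
  exact congrArg Subtype.val this

theorem klein_orderOf (P : Sylow 2 G) (hP : IsKleinFour (P : Subgroup G)) :
    ∀ x ∈ (P : Subgroup G), x ≠ 1 → orderOf x = 2 := by
  intro x hx hx1
  exact orderOf_eq_prime (by rw [pow_two]; exact klein_sq P hP x hx) hx1

theorem klein_le_centralizer (P : Sylow 2 G) (hP : IsKleinFour (P : Subgroup G)) :
    (P : Subgroup G) ≤ Subgroup.centralizer ((P : Subgroup G) : Set G) := by
  intro x hx
  rw [Subgroup.mem_centralizer_iff]
  intro y hy
  exact klein_comm P hP y hy x hx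

/-- an odd power of an element of the normalizer of a Sylow 2-subgroup lies in it -/
theorem exists_odd_pow_mem (P : Sylow 2 G) (n : G)
    (hn : n ∈ Subgroup.normalizer ((P : Subgroup G) : Set G)) :
    ∃ m : ℕ, Odd m ∧ n ^ m ∈ (P : Subgroup G) := by
  obtain ⟨N, hN⟩ : ∃ N : Subgroup G, N = Subgroup.normalizer ((P : Subgroup G) : Set G) :=
    ⟨_, rfl⟩
  have hPN : (P : Subgroup G) ≤ N := hN ▸ Subgroup.le_normalizer
  haveI : ((P : Subgroup G).subgroupOf N).Normal := by
    rw [hN]; exact Subgroup.normal_in_normalizer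
  have hn' : n ∈ N := hN ▸ hn
  refine ⟨orderOf (QuotientGroup.mk (⟨n, hn'⟩ : N) : N ⧸ (P : Subgroup G).subgroupOf N), ?_, ?_⟩
  · have h1 : orderOf (QuotientGroup.mk (⟨n, hn'⟩ : N) : N ⧸ (P : Subgroup G).subgroupOf N) ∣
        (P : Subgroup G).index := by
      refine (orderOf_dvd_natCard _).trans ?_
      rw [← Subgroup.index_eq_card]
      exact Subgroup.relIndex_dvd_index_of_le hPN
    rw [← Nat.not_even_iff_odd, even_iff_two_dvd]
    intro h2
    exact P.not_dvd_index (h2.trans h1)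
  · have h1 := pow_orderOf_eq_one
      (QuotientGroup.mk (⟨n, hn'⟩ : N) : N ⧸ (P : Subgroup G).subgroupOf N)
    rw [← QuotientGroup.mk_pow, QuotientGroup.eq_one_iff, Subgroup.mem_subgroupOf] at h1
    simpa using h1

theorem exists_conj_mem_sylow_two (P : Sylow 2 G) (t : G) (ht : orderOf t = 2) :
    ∃ g : G, g⁻¹ * t * g ∈ (P : Subgroup G) := by
  have hpg : IsPGroup 2 (Subgroup.zpowers t) := by
    apply IsPGroup.of_card (n := 1)
    rw [Nat.card_zpowers, ht, pow_one]
  obtain ⟨Q, hQ⟩ := hpg.exists_le_sylow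
  obtain ⟨g, hg⟩ := MulAction.exists_smul_eq G P Q
  refine ⟨g, ?_⟩
  have h1 : t ∈ (Q : Subgroup G) := hQ (Subgroup.mem_zpowers t)
  rw [← hg, Sylow.smul_def, Sylow.pointwise_smul_def] at h1
  exact (mem_conj_smul_iff g t _).mp h1

/-- If two distinct involutions of a Klein four Sylow 2-subgroup are conjugate, then all of its
involutions are conjugate. -/
theorem klein_fusion (P : Sylow 2 G) (hP : IsKleinFour (P : Subgroup G))
    (x y : (P : Subgroup G)) (hx : x ≠ 1) (hy : y ≠ 1) (hxy : x ≠ y)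
    (hc : IsConj (x : G) (y : G)) : ∀ z : (P : Subgroup G), z ≠ 1 → IsConj (x : G) (z : G) := by
  intro z hz
  haveI := hP
  obtain ⟨c, hcxy⟩ := isConj_iff.mp hc
  have hxC : (x : G) ∈ Subgroup.centralizer ((P : Subgroup G) : Set G) :=
    klein_le_centralizer P hP x.2
  have hyC : c⁻¹⁻¹ * (x : G) * c⁻¹ ∈ Subgroup.centralizer ((P : Subgroup G) : Set G) := by
    rw [inv_inv, hcxy]; exact klein_le_centralizer P hP y.2
  obtain ⟨n, hn, hnxy⟩ := Sylow.conj_eq_normalizer_conj_of_mem_centralizer P (x : G) c⁻¹ hxC hyC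
  rw [inv_inv, hcxy] at hnxy
  by_cases hzx : z = x
  · rw [hzx]
  by_cases hzy : z = y
  · rw [hzy]; exact hc
  have hzmul : z = x * y := IsKleinFour.eq_mul_of_ne_all hx hy hxy hz hzx hzy
  have hn' : n⁻¹ ∈ Subgroup.normalizer ((P : Subgroup G) : Set G) := Subgroup.inv_mem _ hn
  have hwP : n⁻¹ * (y : G) * n ∈ (P : Subgroup G) := by
    have := (Subgroup.mem_normalizer_iff.mp hn' (y : G)).mp y.2
    simpa using this
  obtain ⟨w, hw⟩ : ∃ w : (P : Subgroup G), (w : G) = n⁻¹ * (y : G) * n := ⟨⟨_, hwP⟩, rfl⟩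
  have hw1 : w ≠ 1 := by
    intro h
    apply hy
    have h2 : n⁻¹ * (y : G) * n = 1 := by rw [← hw, h]; rfl
    have h3 : (y : G) = n * (n⁻¹ * (y : G) * n) * n⁻¹ := by group
    rw [h2] at h3
    exact Subtype.ext (by rw [h3]; simp)
  have hwy : w ≠ y := by
    intro h
    apply hxy
    have h2 : n⁻¹ * (y : G) * n = n⁻¹ * (x : G) * n := by rw [← hw, h]; exact hnxy
    exact Subtype.ext (by simpa using h2.symm)
  by_cases hwx : w = x
  · exfalso
    obtain ⟨m, hm, hmP⟩ := exists_odd_pow_mem P n hn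
    have h1 : MulAut.conj n⁻¹ (x : G) = y := by
      rw [MulAut.conj_apply, inv_inv]; exact hnxy.symm
    have h2 : MulAut.conj n⁻¹ (y : G) = x := by
      rw [MulAut.conj_apply, inv_inv, ← hw, hwx]
    have h3 : (MulAut.conj n⁻¹ ^ 2) (x : G) = x := by
      rw [pow_two, MulAut.mul_apply, h1, h2]
    have h4 : (MulAut.conj n⁻¹ ^ 2) (y : G) = y := by
      rw [pow_two, MulAut.mul_apply, h2, h1]
    obtain ⟨j, rfl⟩ := hm
    have h5 : (MulAut.conj n⁻¹ ^ (2 * j + 1)) (x : G) = y := by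
      rw [pow_succ, pow_mul, MulAut.mul_apply, h1]
      exact pow_fix _ _ h4 j
    have h6 : (MulAut.conj n⁻¹ ^ (2 * j + 1)) (x : G) = x := by
      rw [← map_pow MulAut.conj n⁻¹ (2 * j + 1), MulAut.conj_apply, inv_pow]
      have hcomm := klein_comm P hP _ (Subgroup.inv_mem _ hmP) (x : G) x.2
      rw [hcomm, mul_assoc, mul_inv_cancel, mul_one]
    exact hxy (Subtype.ext (h6.symm.trans h5))
  · have hwz : w = z := by
      rw [hzmul]; exact IsKleinFour.eq_mul_of_ne_all hx hy hxy hw1 hwx hwy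
    have : IsConj (y : G) (z : G) := by
      rw [isConj_iff]
      refine ⟨n⁻¹, ?_⟩
      rw [← hwz, hw, inv_inv]
    exact hc.trans this

theorem klein_class_map (P : Sylow 2 G) (hP : IsKleinFour (P : Subgroup G)) :
    ∃ F : {x : (P : Subgroup G) // x ≠ 1} →
        {C : ConjClasses G // ∃ t : G, orderOf t = 2 ∧ ConjClasses.mk t = C},
      (∀ x, (F x).1 = ConjClasses.mk ((x.1 : (P : Subgroup G)) : G)) ∧ Function.Surjective F ∧
        Nat.card {x : (P : Subgroup G) // x ≠ 1} = 3 := by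
  haveI := hP
  refine ⟨fun x => ⟨ConjClasses.mk ((x.1 : (P : Subgroup G)) : G),
    ⟨_, klein_orderOf P hP _ x.1.2 (fun h => x.2 (Subtype.ext h)), rfl⟩⟩, fun x => rfl, ?_, ?_⟩
  · rintro ⟨C, t, ht, rfl⟩
    obtain ⟨g, hg⟩ := exists_conj_mem_sylow_two P t ht
    have hne : (⟨g⁻¹ * t * g, hg⟩ : (P : Subgroup G)) ≠ 1 := by
      intro h
      have h2 : g⁻¹ * t * g = 1 := congrArg Subtype.val h
      have h3 : t = g * (g⁻¹ * t * g) * g⁻¹ := by group
      rw [h2] at h3
      have : t = 1 := by rw [h3]; group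
      rw [this, orderOf_one] at ht
      exact absurd ht (by norm_num)
    refine ⟨⟨⟨g⁻¹ * t * g, hg⟩, hne⟩, Subtype.ext ?_⟩
    show ConjClasses.mk (g⁻¹ * t * g) = ConjClasses.mk t
    rw [ConjClasses.mk_eq_mk_iff_isConj, isConj_iff]
    exact ⟨g, by group⟩
  · rw [card_ne_one_subtype, IsKleinFour.card_four]

end

end Cfsg.Agent.Helper1
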