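import Mathlib
import Cfsg.Agent.Helper27.NS1

set_option autoImplicit false
open Cfsg

namespace Cfsg.Agent.Helper1.OmMb

open Matrix Cfsg.Agent.Helper4.OrthPlane Cfsg.Agent.Helper4.CartanD Cfsg.Agent.Helper4.Dickson

variable {ι : Type} [Fintype ι] [DecidableEq ι] {F : Type*} [Field F] [Fintype F]

section quad

variable (Q : (ι → F) → F)

/-- A common kernel of `k` polar functionals with `2 k < n` contains a non-singular vector. -/
theorem exists_nonsing (hQ : Cfsg.Geo.IsNondegenerateQuadraticForm Q) (k : ℕ)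
    (c : Fin k → ι → F) (hk : 2 * k < Fintype.card ι) :
    ∃ s : ι → F, (∀ i, Bf Q hQ (c i) s = 0) ∧ Q s ≠ 0 := by
  by_contra hcon
  push Not at hcon
  let φ : (ι → F) →ₗ[F] (Fin k → F) := LinearMap.pi (fun i => Bf Q hQ (c i))
  have hW : ∀ w ∈ LinearMap.ker φ, Q w = 0 := by
    intro w hw
    apply hcon
    intro i
    have h0 := congrFun (LinearMap.mem_ker.mp hw) i
    exact h0
  have h1 := Cfsg.Agent.Helper27.NS1.ts_bound Q hQ (LinearMap.ker φ) hW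
  have h2 := LinearMap.finrank_range_add_finrank_ker φ
  have h3 : Module.finrank F (LinearMap.range φ) ≤ k := by
    have h4 := Submodule.finrank_le (LinearMap.range φ)
    rwa [Module.finrank_fintype_fun_eq_card, Fintype.card_fin] at h4
  have h5 : Module.finrank F (ι → F) = Fintype.card ι := Module.finrank_fintype_fun_eq_card F
  omega

/-- Reflection case: `B(b, b') ≠ 0`. -/
theorem refl_case (hQ : Cfsg.Geo.IsNondegenerateQuadraticForm Q) (hch : (2 : F) = 0)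
    (hn : 5 ≤ Fintype.card ι) (a b b' : ι → F) (hb : Q b = 1) (hb' : Q b' = 1)
    (h : Bf Q hQ a b = Bf Q hQ a b') (hbb : Bf Q hQ b b' ≠ 0) :
    ∃ g ∈ Cfsg.Geo.omegaGL Q, (g : Matrix ι ι F) *ᵥ a = a ∧ (g : Matrix ι ι F) *ᵥ b = b' := by
  have h2 : ∀ z : ι → F, z + z = 0 := fun z => by rw [← two_smul F z, hch, zero_smul]
  have h2F : ∀ z : F, z + z = 0 := fun z => by rw [← two_mul, hch, zero_mul]
  have hQw : Q (b + b') = Bf Q hQ b b' := by
    rw [Q_add Q hQ, hb, hb']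
    linear_combination hch
  have hw : Q (b + b') ≠ 0 := by rw [hQw]; exact hbb
  obtain ⟨e, he, hQe⟩ := exists_nonsing Q hQ 2 ![a, b'] (by omega)
  have hea : Bf Q hQ e a = 0 := by
    rw [Bf_symm Q hQ]; simpa using he 0
  have heb' : Bf Q hQ e b' = 0 := by
    rw [Bf_symm Q hQ]; simpa using he 1
  have hmem : rG Q hQ e hQe * rG Q hQ (b + b') hw ∈ Cfsg.Geo.omegaGL Q := by
    have hiso : rG Q hQ e hQe * rG Q hQ (b + b') hw ∈ Cfsg.isometryGroup F Q :=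
      mul_mem (rG_mem Q hQ e hQe) (rG_mem Q hQ (b + b') hw)
    have hdk : dk (rG Q hQ e hQe * rG Q hQ (b + b') hw) = 0 := by
      rw [dk_refl Q hQ _ (rG_mem Q hQ (b + b') hw) e hQe, Cfsg.Agent.Helper27.NS1.dk_rG]
      decide
    have hne : Nonempty ι := by
      apply Fintype.card_pos_iff.mp; omega
    have hc := Cfsg.Agent.Helper27.NS1.mem_of_dk_eq_zero Q hQ hch (Or.inr (by omega)) hne e hQe
      ⟨_, hiso⟩ hdk
    exact Subgroup.mem_map.mpr ⟨_, hc, rfl⟩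
  have hwa : Bf Q hQ (b + b') a = 0 := by
    rw [map_add, LinearMap.add_apply, Bf_symm Q hQ b a, Bf_symm Q hQ b' a, ← h]
    exact h2F _
  have hwb : Bf Q hQ (b + b') b = Bf Q hQ b b' := by
    rw [map_add, LinearMap.add_apply, Bf_self Q hQ, hch, zero_mul, zero_add, Bf_symm Q hQ b' b]
  refine ⟨_, hmem, ?_, ?_⟩
  · show (R Q hQ e * R Q hQ (b + b')) *ᵥ a = a
    rw [← Matrix.mulVec_mulVec, R_mulVec Q hQ (b + b') a, hwa, mul_zero, zero_smul, sub_zero,
      R_mulVec, hea, mul_zero, zero_smul, sub_zero]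
  · show (R Q hQ e * R Q hQ (b + b')) *ᵥ b = b'
    have e1 : R Q hQ (b + b') *ᵥ b = b' := by
      rw [R_mulVec, hwb, hQw, inv_mul_cancel₀ hbb, one_smul, sub_add_eq_sub_sub, sub_self,
        zero_sub]
      exact neg_eq_of_add_eq_zero_right (h2 b')
    rw [← Matrix.mulVec_mulVec, e1, R_mulVec, heb', mul_zero, zero_smul, sub_zero]

/-- A norm-one vector `b ≠ a` is not orthogonal to the whole of `a^⊥`. -/
theorem exists_side (hQ : Cfsg.Geo.IsNondegenerateQuadraticForm Q) (hch : (2 : F) = 0)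
    (a b : ι → F) (ha : Q a = 1) (hb : Q b = 1) (hba : b ≠ a) :
    ∃ e : ι → F, Bf Q hQ a e = 0 ∧ Bf Q hQ b e ≠ 0 := by
  by_contra hcon
  push Not at hcon
  have h2 : ∀ z : ι → F, z + z = 0 := fun z => by rw [← two_smul F z, hch, zero_smul]
  have h2F : ∀ z : F, z + z = 0 := fun z => by rw [← two_mul, hch, zero_mul]
  have ha0 : a ≠ 0 := by
    intro h0
    rw [h0, Q_zero Q hQ] at ha
    exact zero_ne_one ha
  obtain ⟨y, hy⟩ := (hQ.nondegenerate a ha0).2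
  have hy' : Bf Q hQ a y ≠ 0 := hy
  obtain ⟨y₁, hy₁⟩ : ∃ y₁, Bf Q hQ a y₁ = 1 :=
    ⟨(Bf Q hQ a y)⁻¹ • y, by rw [map_smul, smul_eq_mul, inv_mul_cancel₀ hy']⟩
  have key : ∀ x, Bf Q hQ b x = Bf Q hQ a x * Bf Q hQ b y₁ := by
    intro x
    have h1 : Bf Q hQ a (x + Bf Q hQ a x • y₁) = 0 := by
      rw [map_add, map_smul, smul_eq_mul, hy₁, mul_one]; exact h2F _
    have h3 := hcon _ h1
    rw [map_add, map_smul, smul_eq_mul] at h3
    have h4 := h2F (Bf Q hQ a x * Bf Q hQ b y₁)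
    linear_combination h3 - h4
  obtain ⟨κ, hκ⟩ : ∃ κ, κ = Bf Q hQ b y₁ := ⟨_, rfl⟩
  rw [← hκ] at key
  have hzero : b + κ • a = 0 := by
    by_contra hne
    obtain ⟨x, hx⟩ := (hQ.nondegenerate _ hne).2
    apply hx
    show Bf Q hQ (b + κ • a) x = 0
    rw [map_add, LinearMap.add_apply, map_smul, LinearMap.smul_apply, smul_eq_mul, key x]
    have h4 := h2F (κ * Bf Q hQ a x)
    linear_combination h4
  have hbκ : b = κ • a := by
    have h4 := h2 (κ • a)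
    calc b = b + (κ • a + κ • a) := by rw [h4, add_zero]
      _ = (b + κ • a) + κ • a := by rw [add_assoc]
      _ = κ • a := by rw [hzero, zero_add]
  have hκ2 : κ ^ 2 = 1 := by
    have h4 := hQ.smul κ a
    rw [← hbκ, hb, ha, mul_one] at h4
    exact h4.symm
  have hκ1 : κ = 1 := by
    have h4 : (κ + 1) ^ 2 = 0 := by
      linear_combination hκ2 + κ * hch + hch
    have h5 : κ + 1 = 0 := (pow_eq_zero_iff (by norm_num : (2 : ℕ) ≠ 0)).mp h4
    have h6 := h2F (1 : F)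
    linear_combination h5 - h6
  apply hba
  rw [hbκ, hκ1, one_smul]

theorem exists_e (hQ : Cfsg.Geo.IsNondegenerateQuadraticForm Q) (hch : (2 : F) = 0)
    (hn : 9 ≤ Fintype.card ι) (a b b' : ι → F) (ha : Q a = 1) (hb : Q b = 1) (hb' : Q b' = 1)
    (hba : b ≠ a) (hb'a : b' ≠ a) :
    ∃ e : ι → F, Bf Q hQ a e = 0 ∧ Q e ≠ 0 ∧ Bf Q hQ b e ≠ 0 ∧ Bf Q hQ b' e ≠ 0 := by
  obtain ⟨e₁, h1a, h1b⟩ := exists_side Q hQ hch a b ha hb hba
  obtain ⟨e₂, h2a, h2b⟩ := exists_side Q hQ hch a b' ha hb' hb'a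
  obtain ⟨e₀, h0a, h0b, h0b'⟩ : ∃ e₀ : ι → F,
      Bf Q hQ a e₀ = 0 ∧ Bf Q hQ b e₀ ≠ 0 ∧ Bf Q hQ b' e₀ ≠ 0 := by
    by_cases hc1 : Bf Q hQ b' e₁ = 0
    · by_cases hc2 : Bf Q hQ b e₂ = 0
      · refine ⟨e₁ + e₂, ?_, ?_, ?_⟩
        · rw [map_add, h1a, h2a, add_zero]
        · rw [map_add, hc2, add_zero]; exact h1b
        · rw [map_add, hc1, zero_add]; exact h2b
      · exact ⟨e₂, h2a, hc2, h2b⟩
    · exact ⟨e₁, h1a, h1b, hc1⟩
  by_cases hQ0 : Q e₀ = 0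
  · obtain ⟨s, hs, hQs⟩ := exists_nonsing Q hQ 4 ![a, b, b', e₀] (by omega)
    have hsa : Bf Q hQ a s = 0 := by simpa using hs 0
    have hsb : Bf Q hQ b s = 0 := by simpa using hs 1
    have hsb' : Bf Q hQ b' s = 0 := by simpa using hs 2
    have hse : Bf Q hQ e₀ s = 0 := by simpa using hs 3
    refine ⟨e₀ + s, ?_, ?_, ?_, ?_⟩
    · rw [map_add, h0a, hsa, add_zero]
    · rw [Q_add Q hQ, hQ0, hse, zero_add, add_zero]; exact hQs
    · rw [map_add, hsb, add_zero]; exact h0b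
    · rw [map_add, hsb', add_zero]; exact h0b'
  · exact ⟨e₀, h0a, hQ0, h0b, h0b'⟩

/-- M1b: the stabiliser of a norm-one vector `a` in `Ω` is transitive on the norm-one vectors
`b ≠ a` with prescribed `B(a, b)` (characteristic 2, dimension at least 9). -/
theorem omega_stab_trans (hQ : Cfsg.Geo.IsNondegenerateQuadraticForm Q) (hch : (2 : F) = 0)
    (hn : 9 ≤ Fintype.card ι) (a b b' : ι → F) (ha : Q a = 1) (hb : Q b = 1) (hb' : Q b' = 1)
    (hba : b ≠ a) (hb'a : b' ≠ a) (h : Bf Q hQ a b = Bf Q hQ a b') :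
    ∃ g ∈ Cfsg.Geo.omegaGL Q, (g : Matrix ι ι F) *ᵥ a = a ∧ (g : Matrix ι ι F) *ᵥ b = b' := by
  by_cases hbb : Bf Q hQ b b' = 0
  · obtain ⟨e, hea, hQe, hbe, hb'e⟩ := exists_e Q hQ hch hn a b b' ha hb hb' hba hb'a
    obtain ⟨c, hc⟩ : ∃ c, c = Bf Q hQ b e * (Q e)⁻¹ := ⟨_, rfl⟩
    have hcQ : c * Q e = Bf Q hQ b e := by rw [hc, mul_assoc, inv_mul_cancel₀ hQe, mul_one]
    have hc0 : c ≠ 0 := by rw [hc]; exact mul_ne_zero hbe (inv_ne_zero hQe)
    obtain ⟨z, hz⟩ : ∃ z, z = b + c • e := ⟨_, rfl⟩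
    have hQz : Q z = 1 := by
      rw [hz, Q_add_smul Q hQ, hb]
      linear_combination c * hcQ + c * Bf Q hQ b e * hch
    have haz : Bf Q hQ a b = Bf Q hQ a z := by
      rw [hz, map_add, map_smul, hea, smul_zero, add_zero]
    have hbz : Bf Q hQ b z ≠ 0 := by
      rw [hz, map_add, map_smul, smul_eq_mul, Bf_self Q hQ, hch, zero_mul, zero_add]
      exact mul_ne_zero hc0 hbe
    have hzb' : Bf Q hQ z b' ≠ 0 := by
      rw [hz, map_add, LinearMap.add_apply, map_smul, LinearMap.smul_apply, smul_eq_mul, hbb,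
        zero_add, Bf_symm Q hQ e b']
      exact mul_ne_zero hc0 hb'e
    obtain ⟨g₁, hg₁, hg₁a, hg₁b⟩ := refl_case Q hQ hch (by omega) a b z hb hQz haz hbz
    obtain ⟨g₂, hg₂, hg₂a, hg₂b⟩ :=
      refl_case Q hQ hch (by omega) a z b' hQz hb' (haz.symm.trans h) hzb'
    refine ⟨g₂ * g₁, mul_mem hg₂ hg₁, ?_, ?_⟩
    · rw [Units.val_mul, ← Matrix.mulVec_mulVec, hg₁a, hg₂a]
    · rw [Units.val_mul, ← Matrix.mulVec_mulVec, hg₁b, hg₂b]
  · exact refl_case Q hQ hch (by omega) a b b' hb hb' h hbb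

end quad

end Cfsg.Agent.Helper1.OmMb
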