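import Mathlib

/-!
Helper library (helper1): frames of the projective line over a field, for the 3-transitivity
statements about `PGL₂` and `SL₂`.
-/

set_option autoImplicit false

namespace Cfsg.Agent.Helper1.ProjLine

open Projectivization

variable {F : Type*} [Field F]

theorem det_ne (u v : Fin 2 → F) (hu : u ≠ 0) (hv : v ≠ 0)
    (h : Projectivization.mk F u hu ≠ Projectivization.mk F v hv) :
    u 0 * v 1 - u 1 * v 0 ≠ 0 := by
  intro hD
  apply h
  rw [mk_eq_mk_iff']
  by_cases hv0 : v 0 = 0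
  · have hv1 : v 1 ≠ 0 := by
      intro hv1
      apply hv
      ext i
      fin_cases i <;> simp [hv0, hv1]
    have hu0 : u 0 = 0 := by
      rw [hv0, mul_zero, sub_zero] at hD
      exact (mul_eq_zero.mp hD).resolve_right hv1
    refine ⟨u 1 / v 1, ?_⟩
    ext i
    fin_cases i
    · simp [hv0, hu0]
    · simp
      field_simp
  · refine ⟨u 0 / v 0, ?_⟩
    ext i
    fin_cases i
    · simp
      field_simp
    · simp
      field_simp
      linear_combination hD

theorem exists_frame (u v w : Fin 2 → F) (hu : u ≠ 0) (hv : v ≠ 0) (hw : w ≠ 0)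
    (huv : Projectivization.mk F u hu ≠ Projectivization.mk F v hv)
    (huw : Projectivization.mk F u hu ≠ Projectivization.mk F w hw)
    (hvw : Projectivization.mk F v hv ≠ Projectivization.mk F w hw) :
    ∃ M : Matrix (Fin 2) (Fin 2) F, M.det ≠ 0 ∧
      (∀ h, Projectivization.mk F (M.mulVec ![1, 0]) h = Projectivization.mk F u hu) ∧
      (∀ h, Projectivization.mk F (M.mulVec ![0, 1]) h = Projectivization.mk F v hv) ∧
      (∀ h, Projectivization.mk F (M.mulVec ![1, 1]) h = Projectivization.mk F w hw) := by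
  have hD := det_ne u v hu hv huv
  have ha := det_ne w v hw hv (Ne.symm hvw)
  have hb := det_ne u w hu hw huw
  have ha0 : (w 0 * v 1 - w 1 * v 0) / (u 0 * v 1 - u 1 * v 0) ≠ 0 := div_ne_zero ha hD
  have hb0 : (u 0 * w 1 - u 1 * w 0) / (u 0 * v 1 - u 1 * v 0) ≠ 0 := div_ne_zero hb hD
  refine ⟨!![(w 0 * v 1 - w 1 * v 0) / (u 0 * v 1 - u 1 * v 0) * u 0,
      (u 0 * w 1 - u 1 * w 0) / (u 0 * v 1 - u 1 * v 0) * v 0;
      (w 0 * v 1 - w 1 * v 0) / (u 0 * v 1 - u 1 * v 0) * u 1,
      (u 0 * w 1 - u 1 * w 0) / (u 0 * v 1 - u 1 * v 0) * v 1], ?_, ?_, ?_, ?_⟩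
  · rw [Matrix.det_fin_two_of]
    have : (w 0 * v 1 - w 1 * v 0) / (u 0 * v 1 - u 1 * v 0) * u 0 *
        ((u 0 * w 1 - u 1 * w 0) / (u 0 * v 1 - u 1 * v 0) * v 1) -
        (u 0 * w 1 - u 1 * w 0) / (u 0 * v 1 - u 1 * v 0) * v 0 *
        ((w 0 * v 1 - w 1 * v 0) / (u 0 * v 1 - u 1 * v 0) * u 1) =
        (w 0 * v 1 - w 1 * v 0) / (u 0 * v 1 - u 1 * v 0) *
        ((u 0 * w 1 - u 1 * w 0) / (u 0 * v 1 - u 1 * v 0)) * (u 0 * v 1 - u 1 * v 0) := by ring
    rw [this]
    exact mul_ne_zero (mul_ne_zero ha0 hb0) hD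
  · intro h
    rw [mk_eq_mk_iff']
    refine ⟨(w 0 * v 1 - w 1 * v 0) / (u 0 * v 1 - u 1 * v 0), ?_⟩
    ext i
    fin_cases i <;> simp [Matrix.mulVec, dotProduct, Fin.sum_univ_two]
  · intro h
    rw [mk_eq_mk_iff']
    refine ⟨(u 0 * w 1 - u 1 * w 0) / (u 0 * v 1 - u 1 * v 0), ?_⟩
    ext i
    fin_cases i <;> simp [Matrix.mulVec, dotProduct, Fin.sum_univ_two]
  · intro h
    rw [mk_eq_mk_iff']
    refine ⟨1, ?_⟩
    ext i
    have key0 : (w 0 * v 1 - w 1 * v 0) / (u 0 * v 1 - u 1 * v 0) * u 0 +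
        (u 0 * w 1 - u 1 * w 0) / (u 0 * v 1 - u 1 * v 0) * v 0 = w 0 := by
      rw [div_mul_eq_mul_div, div_mul_eq_mul_div, ← add_div, div_eq_iff hD]
      ring
    have key1 : (w 0 * v 1 - w 1 * v 0) / (u 0 * v 1 - u 1 * v 0) * u 1 +
        (u 0 * w 1 - u 1 * w 0) / (u 0 * v 1 - u 1 * v 0) * v 1 = w 1 := by
      rw [div_mul_eq_mul_div, div_mul_eq_mul_div, ← add_div, div_eq_iff hD]
      ring
    fin_cases i
    · simp only [Matrix.mulVec, dotProduct, Fin.sum_univ_two, Fin.zero_eta, Pi.smul_apply,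
        smul_eq_mul, one_mul, Matrix.of_apply, Matrix.cons_val', Matrix.cons_val_zero,
        Matrix.cons_val_fin_one, Matrix.cons_val_one, mul_one]
      exact key0.symm
    · simp only [Matrix.mulVec, dotProduct, Fin.sum_univ_two, Fin.mk_one, Pi.smul_apply,
        smul_eq_mul, one_mul, Matrix.of_apply, Matrix.cons_val', Matrix.cons_val_zero,
        Matrix.cons_val_fin_one, Matrix.cons_val_one, mul_one]
      exact key1.symm

theorem e0_ne : (![1, 0] : Fin 2 → F) ≠ 0 := by
  intro h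
  have := congrFun h 0
  simp at this

theorem e1_ne : (![0, 1] : Fin 2 → F) ≠ 0 := by
  intro h
  have := congrFun h 1
  simp at this

theorem e2_ne : (![1, 1] : Fin 2 → F) ≠ 0 := by
  intro h
  have := congrFun h 0
  simp at this

/-- the point `[1 : 0]` -/
noncomputable def E0 (F : Type*) [Field F] : Projectivization F (Fin 2 → F) :=
  Projectivization.mk F ![1, 0] e0_ne
/-- the point `[0 : 1]` -/
noncomputable def E1 (F : Type*) [Field F] : Projectivization F (Fin 2 → F) :=
  Projectivization.mk F ![0, 1] e1_ne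
/-- the point `[1 : 1]` -/
noncomputable def E2 (F : Type*) [Field F] : Projectivization F (Fin 2 → F) :=
  Projectivization.mk F ![1, 1] e2_ne

theorem inj3 {α : Type*} (a b c : α) (hab : a ≠ b) (hac : a ≠ c) (hbc : b ≠ c) :
    Function.Injective ![a, b, c] := by
  intro i j h
  fin_cases i <;> fin_cases j <;> first
    | rfl
    | (exfalso; simp at h
       first
         | exact hab h | exact hab h.symm | exact hac h | exact hac h.symm
         | exact hbc h | exact hbc h.symm)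

theorem exists_of_pretrans {G α : Type*} [Group G] [MulAction G α]
    (h : MulAction.IsMultiplyPretransitive G α 3)
    (a b c a' b' c' : α) (hab : a ≠ b) (hac : a ≠ c) (hbc : b ≠ c) (hab' : a' ≠ b')
    (hac' : a' ≠ c') (hbc' : b' ≠ c') :
    ∃ g : G, g • a = a' ∧ g • b = b' ∧ g • c = c' := by
  obtain ⟨g, hg⟩ := (MulAction.isMultiplyPretransitive_iff.mp h)
    ⟨![a, b, c], inj3 a b c hab hac hbc⟩ ⟨![a', b', c'], inj3 a' b' c' hab' hac' hbc'⟩
  refine ⟨g, ?_, ?_, ?_⟩
  · have := congrFun (congrArg DFunLike.coe hg) 0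
    simpa [Function.Embedding.smul_apply] using this
  · have := congrFun (congrArg DFunLike.coe hg) 1
    simpa [Function.Embedding.smul_apply] using this
  · have := congrFun (congrArg DFunLike.coe hg) 2
    simpa [Function.Embedding.smul_apply] using this

theorem pretrans_of_frame {G α : Type*} [Group G] [MulAction G α] (e0 e1 e2 : α)
    (h : ∀ a b c : α, a ≠ b → a ≠ c → b ≠ c → ∃ g : G, g • e0 = a ∧ g • e1 = b ∧ g • e2 = c) :
    MulAction.IsMultiplyPretransitive G α 3 := by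
  rw [MulAction.isMultiplyPretransitive_iff]
  intro x y
  obtain ⟨gx, hx0, hx1, hx2⟩ := h (x 0) (x 1) (x 2) (x.injective.ne (by decide))
    (x.injective.ne (by decide)) (x.injective.ne (by decide))
  obtain ⟨gy, hy0, hy1, hy2⟩ := h (y 0) (y 1) (y 2) (y.injective.ne (by decide))
    (y.injective.ne (by decide)) (y.injective.ne (by decide))
  refine ⟨gy * gx⁻¹, ?_⟩
  ext i
  rw [Function.Embedding.smul_apply, mul_smul]
  fin_cases i
  · show gy • gx⁻¹ • x 0 = y 0
    rw [← hx0, inv_smul_smul, hy0]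
  · show gy • gx⁻¹ • x 1 = y 1
    rw [← hx1, inv_smul_smul, hy1]
  · show gy • gx⁻¹ • x 2 = y 2
    rw [← hx2, inv_smul_smul, hy2]

end Cfsg.Agent.Helper1.ProjLine
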