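import Mathlib
import Cfsg.Prelude.Def_PLocal

set_option autoImplicit false
open Cfsg
open scoped commutatorElement

namespace Cfsg.Agent.Helper1

/-- In a finite `p`-group, two non-commuting elements `a, b` lie in a subgroup `K = ⟨a, b⟩` having a
proper subgroup `M` normalised by `K`, containing `a` and the derived subgroup of `K`. -/
theorem regular_exists_proper_normal {G : Type*} [Group G] [Finite G] {p : ℕ} [Fact p.Prime]
    (hG : IsPGroup p G) (a b : G) (hab : a * b ≠ b * a) :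
    ∃ M : Subgroup G, M < Subgroup.closure ({a, b} : Set G) ∧
      (∀ g ∈ Subgroup.closure ({a, b} : Set G), ∀ m ∈ M, g * m * g⁻¹ ∈ M) ∧ a ∈ M ∧
      ⁅Subgroup.closure ({a, b} : Set G), Subgroup.closure ({a, b} : Set G)⁆ ≤ M := by
  obtain ⟨K, hKdef⟩ : ∃ K, K = Subgroup.closure ({a, b} : Set G) := ⟨_, rfl⟩
  rw [← hKdef]
  have haK : a ∈ K := by rw [hKdef]; exact Subgroup.subset_closure (by simp)
  have hbK : b ∈ K := by rw [hKdef]; exact Subgroup.subset_closure (by simp)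
  have hKp : IsPGroup p K := hG.to_subgroup K
  haveI : Group.IsNilpotent K := hKp.isNilpotent
  have hz : Subgroup.zpowers (⟨a, haK⟩ : K) ≠ ⊤ := by
    intro h
    have hb' : (⟨b, hbK⟩ : K) ∈ Subgroup.zpowers (⟨a, haK⟩ : K) := by
      rw [h]; exact Subgroup.mem_top _
    obtain ⟨k, hk⟩ := Subgroup.mem_zpowers_iff.mp hb'
    have hk' : a ^ k = b := by
      have := congrArg Subtype.val hk
      simpa using this
    apply hab
    rw [← hk']
    exact (Commute.self_zpow a k).eq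
  obtain ⟨C, hC, haC⟩ :=
    (eq_top_or_exists_le_coatom (Subgroup.zpowers (⟨a, haK⟩ : K))).resolve_left hz
  haveI hCn : C.Normal :=
    Subgroup.NormalizerCondition.normal_of_coatom C Group.normalizerCondition_of_isNilpotent hC
  obtain ⟨x, hx⟩ : ∃ x : K, x ∉ C := by
    by_contra hcon
    push_neg at hcon
    exact hC.1 (eq_top_iff.mpr fun y _ => hcon y)
  have hsup : C ⊔ Subgroup.zpowers x = ⊤ := by
    apply hC.2
    refine lt_of_le_of_ne le_sup_left ?_
    intro h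
    apply hx
    have h2 : Subgroup.zpowers x ≤ C := by
      have h3 : Subgroup.zpowers x ≤ C ⊔ Subgroup.zpowers x := le_sup_right
      rw [← h] at h3
      exact h3
    exact h2 (Subgroup.mem_zpowers x)
  have hcomm : _root_.commutator K ≤ C :=
    Subgroup.Normal.commutator_le_of_self_sup_commutative_eq_top hsup inferInstance
  have hfwd : ∀ g ∈ K, ∀ h ∈ C.map K.subtype, g * h * g⁻¹ ∈ C.map K.subtype := by
    rintro g hg _ ⟨c, hc, rfl⟩
    exact ⟨⟨g, hg⟩ * c * ⟨g, hg⟩⁻¹, hCn.conj_mem c hc ⟨g, hg⟩, by simp⟩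
  refine ⟨C.map K.subtype, ?_, ?_, ?_, ?_⟩
  · refine lt_of_le_of_ne (Subgroup.map_subtype_le C) ?_
    intro h
    apply hC.1
    apply Subgroup.map_injective K.subtype_injective
    rw [h, ← MonoidHom.range_eq_map, Subgroup.range_subtype]
  · exact hfwd
  · exact ⟨⟨a, haK⟩, haC (Subgroup.mem_zpowers _), rfl⟩
  · have e : ⁅K, K⁆ = (_root_.commutator K).map K.subtype := by
      rw [commutator_def, Subgroup.map_commutator, ← MonoidHom.range_eq_map,
        Subgroup.range_subtype]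
    rw [e]
    exact Subgroup.map_mono hcomm

/-- If `Ω` is normalised by `⟨x, y⟩` and contains `⁅x, y⁆` then it contains the derived subgroup
of `⟨x, y⟩`. -/
theorem regular_comm_le {G : Type*} [Group G] (Ω : Subgroup G) (x y : G)
    (hN : ∀ g ∈ Subgroup.closure ({x, y} : Set G), ∀ w ∈ Ω, g * w * g⁻¹ ∈ Ω) (hxy : ⁅x, y⁆ ∈ Ω) :
    ⁅Subgroup.closure ({x, y} : Set G), Subgroup.closure ({x, y} : Set G)⁆ ≤ Ω := by
  rw [Subgroup.commutator_le]
  intro g hg h hh
  have key : ∀ u : G, u ∈ Subgroup.closure ({x, y} : Set G) → ∀ w ∈ Ω, u * w * u⁻¹ ∈ Ω := hN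
  refine Subgroup.closure_induction₂ (p := fun g h _ _ => ⁅g, h⁆ ∈ Ω) ?_ ?_ ?_ ?_ ?_ ?_ ?_ hg hh
  · intro u v hu hv
    rcases hu with rfl | rfl <;> rcases hv with rfl | rfl
    · rw [commutatorElement_self]; exact Ω.one_mem
    · exact hxy
    · rw [← commutatorElement_inv]; exact Ω.inv_mem hxy
    · rw [commutatorElement_self]; exact Ω.one_mem
  · intro u hu; rw [commutatorElement_one_left]; exact Ω.one_mem
  · intro u hu; rw [commutatorElement_one_right]; exact Ω.one_mem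
  · intro u v w hu hv hw h1 h2
    have e : ⁅u * v, w⁆ = u * ⁅v, w⁆ * u⁻¹ * ⁅u, w⁆ := by
      simp only [commutatorElement_def]; group
    rw [e]; exact Ω.mul_mem (key u hu _ h2) h1
  · intro v w u hv hw hu h1 h2
    have e : ⁅u, v * w⁆ = ⁅u, v⁆ * (v * ⁅u, w⁆ * v⁻¹) := by
      simp only [commutatorElement_def]; group
    rw [e]; exact Ω.mul_mem h1 (key v hv _ h2)
  · intro u v hu hv h1
    have e : ⁅u⁻¹, v⁆ = u⁻¹ * ⁅u, v⁆⁻¹ * u⁻¹⁻¹ := by
      simp only [commutatorElement_def]; group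
    rw [e]; exact key u⁻¹ (Subgroup.inv_mem _ hu) _ (Ω.inv_mem h1)
  · intro u v hu hv h1
    have e : ⁅u, v⁻¹⁆ = v⁻¹ * ⁅u, v⁆⁻¹ * v⁻¹⁻¹ := by
      simp only [commutatorElement_def]; group
    rw [e]; exact key v⁻¹ (Subgroup.inv_mem _ hv) _ (Ω.inv_mem h1)

/-- In a regular `p`-group, `x^q y^q = 1` implies `(xy)^q = 1` for `q = p^n`. -/
theorem regular_pow_mul_eq_one {G : Type*} [Group G] [Finite G] {p : ℕ} [Fact p.Prime]
    (hG : Cfsg.IsRegularPGroup p G) (n : ℕ) (x y : G) (hxy : x ^ p ^ n * y ^ p ^ n = 1) :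
    (x * y) ^ p ^ n = 1 := by
  obtain ⟨hp, hreg⟩ := hG
  suffices H : ∀ N : ℕ, ∀ x y : G, Nat.card (Subgroup.closure ({x, y} : Set G)) = N →
      x ^ p ^ n * y ^ p ^ n = 1 → (x * y) ^ p ^ n = 1 from H _ x y rfl hxy
  intro N
  induction N using Nat.strong_induction_on with
  | _ N ih =>
  intro x y hN hxy
  by_cases hc : x * y = y * x
  · have hcm : Commute x y := hc
    rw [hcm.mul_pow, hxy]
  · obtain ⟨M, hMlt, hMn, hxM, hcM⟩ := regular_exists_proper_normal hp x y hc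
    obtain ⟨K, hKdef⟩ : ∃ K, K = Subgroup.closure ({x, y} : Set G) := ⟨_, rfl⟩
    rw [← hKdef] at hMlt hMn hcM hN
    have hxK : x ∈ K := by rw [hKdef]; exact Subgroup.subset_closure (by simp)
    have hyK : y ∈ K := by rw [hKdef]; exact Subgroup.subset_closure (by simp)
    have hcardM : Nat.card M < N := by
      rw [← hN]
      by_contra hcon
      exact hMlt.ne (Subgroup.eq_of_le_of_card_ge hMlt.le (not_lt.mp hcon))
    have ih' : ∀ u ∈ M, ∀ v ∈ M, u ^ p ^ n * v ^ p ^ n = 1 → (u * v) ^ p ^ n = 1 := by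
      intro u hu v hv huv
      have hle : Subgroup.closure ({u, v} : Set G) ≤ M := by
        rw [Subgroup.closure_le]
        intro w hw
        rcases hw with rfl | rfl
        · exact hu
        · exact hv
      exact ih _ (lt_of_le_of_lt (Subgroup.card_le_of_le hle) hcardM) u v rfl huv
    let Ω : Subgroup G :=
      { carrier := {u | u ∈ M ∧ u ^ p ^ n = 1}
        mul_mem' := fun {u v} hu hv =>
          ⟨M.mul_mem hu.1 hv.1, ih' u hu.1 v hv.1 (by rw [hu.2, hv.2, mul_one])⟩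
        one_mem' := ⟨M.one_mem, one_pow _⟩
        inv_mem' := fun {u} hu => ⟨M.inv_mem hu.1, by rw [inv_pow, hu.2, inv_one]⟩ }
    have hΩ : ∀ u, u ∈ Ω ↔ u ∈ M ∧ u ^ p ^ n = 1 := fun u => Iff.rfl
    have hxq : (x ^ p ^ n)⁻¹ = y ^ p ^ n := inv_eq_of_mul_eq_one_right hxy
    have hcomm : y * (x ^ p ^ n)⁻¹ * y⁻¹ = (x ^ p ^ n)⁻¹ := by
      rw [hxq, ← pow_succ', pow_succ, mul_inv_cancel_right]
    have hw'M : y * x⁻¹ * y⁻¹ ∈ M := hMn y hyK _ (M.inv_mem hxM)
    have hw'q : (y * x⁻¹ * y⁻¹) ^ p ^ n = (x ^ p ^ n)⁻¹ := by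
      rw [conj_pow, inv_pow, hcomm]
    have hcq : ⁅x, y⁆ ^ p ^ n = 1 := by
      have h1 := ih' x hxM _ hw'M (by rw [hw'q, mul_inv_cancel])
      have e : ⁅x, y⁆ = x * (y * x⁻¹ * y⁻¹) := by rw [commutatorElement_def]; group
      rw [e]; exact h1
    have hcΩ : ⁅x, y⁆ ∈ Ω :=
      (hΩ _).mpr ⟨hcM (Subgroup.commutator_mem_commutator hxK hyK), hcq⟩
    have hKΩ : ∀ g ∈ K, ∀ w ∈ Ω, g * w * g⁻¹ ∈ Ω := by
      intro g hg w hw
      rw [hΩ] at hw ⊢
      refine ⟨hMn g hg w hw.1, ?_⟩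
      rw [conj_pow, hw.2, mul_one, mul_inv_cancel]
    have hle : ⁅K, K⁆ ≤ Ω := by
      rw [hKdef]
      exact regular_comm_le Ω x y (by rw [← hKdef]; exact hKΩ) hcΩ
    obtain ⟨c, hc', he⟩ := hreg x y n
    have hc1 : c = 1 := by
      have hbot : Cfsg.powerClosure p n ⁅Subgroup.closure ({x, y} : Set G),
          Subgroup.closure ({x, y} : Set G)⁆ ≤ ⊥ := by
        unfold Cfsg.powerClosure
        rw [Subgroup.closure_le]
        rintro _ ⟨w, hw, rfl⟩
        rw [← hKdef] at hw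
        exact Subgroup.mem_bot.mpr ((hΩ w).mp (hle hw)).2
      exact Subgroup.mem_bot.mp (hbot hc')
    rw [he, hxy, hc1, mul_one]

/-- In a regular `p`-group the elements with `x^(p^k) = 1` form a characteristic subgroup. -/
theorem regular_omega {G : Type*} [Group G] [Finite G] {p : ℕ} [Fact p.Prime]
    (hG : Cfsg.IsRegularPGroup p G) (k : ℕ) :
    ∃ H : Subgroup G, H.Characteristic ∧ ∀ x : G, x ∈ H ↔ x ^ p ^ k = 1 := by
  refine ⟨{ carrier := {x | x ^ p ^ k = 1}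
            mul_mem' := fun {u v} (hu : u ^ p ^ k = 1) (hv : v ^ p ^ k = 1) =>
              regular_pow_mul_eq_one hG k u v (by rw [hu, hv, mul_one])
            one_mem' := one_pow _
            inv_mem' := fun {u} (hu : u ^ p ^ k = 1) =>
              show u⁻¹ ^ p ^ k = 1 by rw [inv_pow, hu, inv_one] }, ?_, fun x => Iff.rfl⟩
  rw [Subgroup.characteristic_iff_comap_le]
  intro ϕ x hx
  have hx' : (ϕ x) ^ p ^ k = 1 := hx
  show x ^ p ^ k = 1
  rw [← map_pow] at hx'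
  exact (MulEquiv.map_eq_one_iff ϕ).mp hx'

/-- In a regular `p`-group, `(a b⁻¹)^q = 1` implies `a^q = b^q` for `q = p^k`. -/
theorem regular_pow_eq_of {G : Type*} [Group G] [Finite G] {p : ℕ} [Fact p.Prime]
    (hG : Cfsg.IsRegularPGroup p G) (k : ℕ) (a b : G) (h : (a * b⁻¹) ^ p ^ k = 1) :
    a ^ p ^ k = b ^ p ^ k := by
  obtain ⟨H, hchar, hH⟩ := regular_omega hG k
  haveI hn : H.Normal := Subgroup.normal_of_characteristic H
  obtain ⟨hp, hreg⟩ := hG
  obtain ⟨c, hcdef⟩ : ∃ c, c = a * b⁻¹ := ⟨_, rfl⟩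
  rw [← hcdef] at h
  have ha : a = c * b := by rw [hcdef, inv_mul_cancel_right]
  have hcH : c ∈ H := (hH c).mpr h
  have hcomm : ⁅c, b⁆ ∈ H := by
    have e : ⁅c, b⁆ = c * (b * c⁻¹ * b⁻¹) := by rw [commutatorElement_def]; group
    rw [e]
    exact H.mul_mem hcH (hn.conj_mem _ (H.inv_mem hcH) b)
  have hle : ⁅Subgroup.closure ({c, b} : Set G), Subgroup.closure ({c, b} : Set G)⁆ ≤ H :=
    regular_comm_le H c b (fun g _ w hw => hn.conj_mem w hw g) hcomm
  obtain ⟨d, hd, he⟩ := hreg c b k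
  have hd1 : d = 1 := by
    have hbot : Cfsg.powerClosure p k ⁅Subgroup.closure ({c, b} : Set G),
        Subgroup.closure ({c, b} : Set G)⁆ ≤ ⊥ := by
      unfold Cfsg.powerClosure
      rw [Subgroup.closure_le]
      rintro _ ⟨w, hw, rfl⟩
      exact Subgroup.mem_bot.mpr ((hH w).mp (hle hw))
    exact Subgroup.mem_bot.mp (hbot hd)
  rw [ha, he, h, hd1, one_mul, mul_one]

end Cfsg.Agent.Helper1
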