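import Mathlib
import Cfsg.Prelude.Def_PLocal

set_option autoImplicit false
open Cfsg
open scoped commutatorElement

namespace Cfsg.Agent.Helper1

/-- Regularity of a `p`-group at level `n` (the `n`-th instance of `Cfsg.IsRegularPGroup`). -/
def RegAt (p n : ℕ) (G : Type*) [Group G] : Prop :=
  ∀ a b : G, ∃ c ∈ Cfsg.powerClosure p n
      ⁅Subgroup.closure ({a, b} : Set G), Subgroup.closure ({a, b} : Set G)⁆,
    (a * b) ^ (p ^ n) = a ^ (p ^ n) * b ^ (p ^ n) * c

theorem commutator_self_le' {G : Type*} [Group G] (H : Subgroup G) : ⁅H, H⁆ ≤ H := by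
  rw [Subgroup.commutator_le]
  intro g1 h1 g2 h2
  rw [commutatorElement_def]
  exact H.mul_mem (H.mul_mem (H.mul_mem h1 h2) (H.inv_mem h1)) (H.inv_mem h2)

theorem powerClosure_mono' {G : Type*} [Group G] (p n : ℕ) {H K : Subgroup G} (h : H ≤ K) :
    Cfsg.powerClosure p n H ≤ Cfsg.powerClosure p n K := by
  unfold Cfsg.powerClosure
  apply Subgroup.closure_mono
  rintro _ ⟨x, hx, rfl⟩
  exact ⟨x, h hx, rfl⟩

theorem powerClosure_le_self {G : Type*} [Group G] (p n : ℕ) (H : Subgroup G) :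
    Cfsg.powerClosure p n H ≤ H := by
  unfold Cfsg.powerClosure
  rw [Subgroup.closure_le]
  rintro _ ⟨x, hx, rfl⟩
  exact H.pow_mem hx _

/-- A non-abelian subgroup `K` of a finite `p`-group has, for each `g ∈ K`, a proper subgroup
`M` normalised by `K` containing `g` and the derived subgroup of `K`. -/
theorem regular_exists_proper_normal' {G : Type*} [Group G] [Finite G] {p : ℕ} [Fact p.Prime]
    (hG : IsPGroup p G) (K : Subgroup G) (hK : ∃ a ∈ K, ∃ b ∈ K, a * b ≠ b * a) (g : G)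
    (hg : g ∈ K) :
    ∃ M : Subgroup G, M < K ∧ (∀ k ∈ K, ∀ m ∈ M, k * m * k⁻¹ ∈ M) ∧ g ∈ M ∧ ⁅K, K⁆ ≤ M := by
  obtain ⟨a, haK, b, hbK, hab⟩ := hK
  have hKp : IsPGroup p K := hG.to_subgroup K
  haveI : Group.IsNilpotent K := hKp.isNilpotent
  have hz : Subgroup.zpowers (⟨g, hg⟩ : K) ≠ ⊤ := by
    intro h
    have ha' : (⟨a, haK⟩ : K) ∈ Subgroup.zpowers (⟨g, hg⟩ : K) := by
      rw [h]; exact Subgroup.mem_top _
    have hb' : (⟨b, hbK⟩ : K) ∈ Subgroup.zpowers (⟨g, hg⟩ : K) := by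
      rw [h]; exact Subgroup.mem_top _
    obtain ⟨i, hi⟩ := Subgroup.mem_zpowers_iff.mp ha'
    obtain ⟨j, hj⟩ := Subgroup.mem_zpowers_iff.mp hb'
    have hi' : g ^ i = a := by
      have := congrArg Subtype.val hi
      simpa using this
    have hj' : g ^ j = b := by
      have := congrArg Subtype.val hj
      simpa using this
    apply hab
    rw [← hi', ← hj']
    exact zpow_mul_comm g i j
  obtain ⟨C, hC, hgC⟩ :=
    (eq_top_or_exists_le_coatom (Subgroup.zpowers (⟨g, hg⟩ : K))).resolve_left hz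
  haveI hCn : C.Normal :=
    Subgroup.NormalizerCondition.normal_of_coatom C Group.normalizerCondition_of_isNilpotent hC
  obtain ⟨x, hx⟩ : ∃ x : K, x ∉ C := by
    by_contra hcon
    push_neg at hcon
    exact hC.1 (eq_top_iff.mpr fun y _ => hcon y)
  have hsup : C ⊔ Subgroup.zpowers x = ⊤ := by
    apply hC.2
    refine lt_of_le_of_ne le_sup_left ?_
    intro h
    apply hx
    have h2 : Subgroup.zpowers x ≤ C := by
      have h3 : Subgroup.zpowers x ≤ C ⊔ Subgroup.zpowers x := le_sup_right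
      rw [← h] at h3
      exact h3
    exact h2 (Subgroup.mem_zpowers x)
  have hcomm : _root_.commutator K ≤ C :=
    Subgroup.Normal.commutator_le_of_self_sup_commutative_eq_top hsup inferInstance
  have hfwd : ∀ k ∈ K, ∀ h ∈ C.map K.subtype, k * h * k⁻¹ ∈ C.map K.subtype := by
    rintro k hk _ ⟨c, hc, rfl⟩
    exact ⟨⟨k, hk⟩ * c * ⟨k, hk⟩⁻¹, hCn.conj_mem c hc ⟨k, hk⟩, by simp⟩
  refine ⟨C.map K.subtype, ?_, hfwd, ?_, ?_⟩
  · refine lt_of_le_of_ne (Subgroup.map_subtype_le C) ?_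
    intro h
    apply hC.1
    apply Subgroup.map_injective K.subtype_injective
    rw [h, ← MonoidHom.range_eq_map, Subgroup.range_subtype]
  · exact ⟨⟨g, hg⟩, hgC (Subgroup.mem_zpowers _), rfl⟩
  · have e : ⁅K, K⁆ = (_root_.commutator K).map K.subtype := by
      rw [commutator_def, Subgroup.map_commutator, ← MonoidHom.range_eq_map,
        Subgroup.range_subtype]
    rw [e]
    exact Subgroup.map_mono hcomm

/-- In a `p`-group regular at level `n`, a product of two `p^n`-th powers is a `p^n`-th power. -/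
theorem regAt_pow_mul_pow {G : Type*} [Group G] [Finite G] {p : ℕ} [Fact p.Prime]
    (hp : IsPGroup p G) (n : ℕ) (hreg : RegAt p n G) (a b : G) :
    ∃ z ∈ Subgroup.closure ({a, b} : Set G), a ^ p ^ n * b ^ p ^ n = z ^ p ^ n := by
  suffices H : ∀ N : ℕ, ∀ a b : G, Nat.card (Subgroup.closure ({a, b} : Set G)) = N →
      ∃ z ∈ Subgroup.closure ({a, b} : Set G), a ^ p ^ n * b ^ p ^ n = z ^ p ^ n from
    H _ a b rfl
  intro N
  induction N using Nat.strong_induction_on with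
  | _ N ih =>
  intro a b hN
  have haK' : a ∈ Subgroup.closure ({a, b} : Set G) := Subgroup.subset_closure (by simp)
  have hbK' : b ∈ Subgroup.closure ({a, b} : Set G) := Subgroup.subset_closure (by simp)
  by_cases hc : a * b = b * a
  · have hcm : Commute a b := hc
    exact ⟨a * b, Subgroup.mul_mem _ haK' hbK', (hcm.mul_pow _).symm⟩
  · obtain ⟨K, hKdef⟩ : ∃ K, K = Subgroup.closure ({a, b} : Set G) := ⟨_, rfl⟩
    obtain ⟨c, hc', he⟩ := hreg a b
    rw [← hKdef] at haK' hbK' hN hc' ⊢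
    obtain ⟨M, hMlt, hMn, habM, hcM⟩ :=
      regular_exists_proper_normal' hp K ⟨a, haK', b, hbK', hc⟩ (a * b) (K.mul_mem haK' hbK')
    have hcardM : Nat.card M < N := by
      rw [← hN]
      by_contra hcon
      exact hMlt.ne (Subgroup.eq_of_le_of_card_ge hMlt.le (not_lt.mp hcon))
    have ih' : ∀ u ∈ M, ∀ v ∈ M, ∃ z ∈ Subgroup.closure ({u, v} : Set G),
        u ^ p ^ n * v ^ p ^ n = z ^ p ^ n := by
      intro u hu v hv
      have hle : Subgroup.closure ({u, v} : Set G) ≤ M := by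
        rw [Subgroup.closure_le]
        intro w hw
        rcases hw with rfl | rfl
        · exact hu
        · exact hv
      exact ih _ (lt_of_le_of_lt (Subgroup.card_le_of_le hle) hcardM) u v rfl
    have hpowK' : ∀ g ∈ Cfsg.powerClosure p n ⁅K, K⁆, ∃ w ∈ ⁅K, K⁆, g = w ^ p ^ n := by
      intro g hg
      unfold Cfsg.powerClosure at hg
      induction hg using Subgroup.closure_induction with
      | mem x hx => obtain ⟨w, hw, rfl⟩ := hx; exact ⟨w, hw, rfl⟩
      | one => exact ⟨1, Subgroup.one_mem _, (one_pow _).symm⟩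
      | mul x y _ _ hx hy =>
        obtain ⟨w1, hw1, rfl⟩ := hx
        obtain ⟨w2, hw2, rfl⟩ := hy
        obtain ⟨z, hz, hzq⟩ := ih' w1 (hcM hw1) w2 (hcM hw2)
        refine ⟨z, ?_, hzq⟩
        have hle : Subgroup.closure ({w1, w2} : Set G) ≤ ⁅K, K⁆ := by
          rw [Subgroup.closure_le]
          intro t ht
          rcases ht with rfl | rfl
          · exact hw1
          · exact hw2
        exact hle hz
      | inv x _ hx =>
        obtain ⟨w, hw, rfl⟩ := hx
        exact ⟨w⁻¹, Subgroup.inv_mem _ hw, (inv_pow _ _).symm⟩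
    obtain ⟨d, hd, hdq⟩ := hpowK' c⁻¹ (Subgroup.inv_mem _ hc')
    obtain ⟨z, hz, hzq⟩ := ih' (a * b) habM d (hcM hd)
    refine ⟨z, ?_, ?_⟩
    · have hle : Subgroup.closure ({a * b, d} : Set G) ≤ K := by
        rw [Subgroup.closure_le]
        intro t ht
        rcases ht with rfl | rfl
        · exact K.mul_mem haK' hbK'
        · exact hMlt.le (hcM hd)
      exact hle hz
    · rw [← hzq, ← hdq, he, mul_inv_cancel_right]

/-- In a `p`-group regular at level `n`, every element of the subgroup generated by the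
`p^n`-th powers of `H` is a `p^n`-th power of an element of `H`. -/
theorem regAt_powerClosure {G : Type*} [Group G] [Finite G] {p : ℕ} [Fact p.Prime]
    (hp : IsPGroup p G) (n : ℕ) (hreg : RegAt p n G) (H : Subgroup G) (g : G)
    (hg : g ∈ Cfsg.powerClosure p n H) : ∃ x ∈ H, g = x ^ p ^ n := by
  unfold Cfsg.powerClosure at hg
  induction hg using Subgroup.closure_induction with
  | mem x hx => obtain ⟨w, hw, rfl⟩ := hx; exact ⟨w, hw, rfl⟩
  | one => exact ⟨1, Subgroup.one_mem _, (one_pow _).symm⟩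
  | mul x y _ _ hx hy =>
    obtain ⟨w1, hw1, rfl⟩ := hx
    obtain ⟨w2, hw2, rfl⟩ := hy
    obtain ⟨z, hz, hzq⟩ := regAt_pow_mul_pow hp n hreg w1 w2
    refine ⟨z, ?_, hzq⟩
    have hle : Subgroup.closure ({w1, w2} : Set G) ≤ H := by
      rw [Subgroup.closure_le]
      intro t ht
      rcases ht with rfl | rfl
      · exact hw1
      · exact hw2
    exact hle hz
  | inv x _ hx =>
    obtain ⟨w, hw, rfl⟩ := hx
    exact ⟨w⁻¹, Subgroup.inv_mem _ hw, (inv_pow _ _).symm⟩

/-- In a `p`-group regular at level `n`: `[℧ₙ(H), ℧ₙ(H)] ≤ ℧ₙ([H, H])`. -/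
theorem regAt_comm_le {G : Type*} [Group G] [Finite G] {p : ℕ} [Fact p.Prime]
    (hp : IsPGroup p G) (n : ℕ) (hreg : RegAt p n G) (H : Subgroup G) :
    ⁅Cfsg.powerClosure p n H, Cfsg.powerClosure p n H⁆ ≤ Cfsg.powerClosure p n ⁅H, H⁆ := by
  have hcomm_le : ⁅H, H⁆ ≤ H := commutator_self_le' H
  have hH'n : ∀ h ∈ H, ∀ w ∈ ⁅H, H⁆, h * w * h⁻¹ ∈ ⁅H, H⁆ := by
    intro h hh w hw
    have e : h * w * h⁻¹ = ⁅h, w⁆ * w := by rw [commutatorElement_def]; group
    rw [e]
    exact Subgroup.mul_mem _ (Subgroup.commutator_mem_commutator hh (hcomm_le hw)) hw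
  have hΩn : ∀ h ∈ H, ∀ w ∈ Cfsg.powerClosure p n ⁅H, H⁆,
      h * w * h⁻¹ ∈ Cfsg.powerClosure p n ⁅H, H⁆ := by
    intro h hh w hw
    unfold Cfsg.powerClosure at hw ⊢
    induction hw using Subgroup.closure_induction with
    | mem x hx =>
      obtain ⟨u, hu, rfl⟩ := hx
      exact Subgroup.subset_closure ⟨h * u * h⁻¹, hH'n h hh u hu, (conj_pow).symm⟩
    | one => simp
    | mul x y _ _ hx hy =>
      have e : h * (x * y) * h⁻¹ = (h * x * h⁻¹) * (h * y * h⁻¹) := by group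
      rw [e]; exact Subgroup.mul_mem _ hx hy
    | inv x _ hx =>
      have e : h * x⁻¹ * h⁻¹ = (h * x * h⁻¹)⁻¹ := by group
      rw [e]; exact Subgroup.inv_mem _ hx
  have key : ∀ a ∈ H, ∀ b ∈ H,
      (a ^ p ^ n)⁻¹ * (b⁻¹ * a ^ p ^ n * b) ∈ Cfsg.powerClosure p n ⁅H, H⁆ := by
    intro a ha b hb
    obtain ⟨c, hcdef⟩ : ∃ c, c = b⁻¹ * a * b * a⁻¹ := ⟨_, rfl⟩
    have hcH' : c ∈ ⁅H, H⁆ := by
      have e : c = ⁅b⁻¹, a⁆ := by rw [hcdef, commutatorElement_def, inv_inv]
      rw [e]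
      exact Subgroup.commutator_mem_commutator (H.inv_mem hb) ha
    have hca : b⁻¹ * a * b = c * a := by rw [hcdef, inv_mul_cancel_right]
    obtain ⟨d, hd, he⟩ := hreg c a
    have hle : Subgroup.closure ({c, a} : Set G) ≤ H := by
      rw [Subgroup.closure_le]
      intro t ht
      rcases ht with rfl | rfl
      · exact hcomm_le hcH'
      · exact ha
    have hd' : d ∈ Cfsg.powerClosure p n ⁅H, H⁆ :=
      powerClosure_mono' p n (Subgroup.commutator_mono hle hle) hd
    have hcq : c ^ p ^ n ∈ Cfsg.powerClosure p n ⁅H, H⁆ := by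
      unfold Cfsg.powerClosure
      exact Subgroup.subset_closure ⟨c, hcH', rfl⟩
    have hconj : b⁻¹ * a ^ p ^ n * b = (b⁻¹ * a * b) ^ p ^ n := by
      have h1 := conj_pow (a := b⁻¹) (b := a) (i := p ^ n)
      rw [inv_inv] at h1
      exact h1.symm
    rw [hconj, hca, he]
    have e : (a ^ p ^ n)⁻¹ * (c ^ p ^ n * a ^ p ^ n * d) =
        ((a ^ p ^ n)⁻¹ * c ^ p ^ n * ((a ^ p ^ n)⁻¹)⁻¹) * d := by
      rw [inv_inv]; simp only [mul_assoc]
    rw [e]
    exact Subgroup.mul_mem _ (hΩn _ (H.inv_mem (H.pow_mem ha _)) _ hcq) hd'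
  rw [Subgroup.commutator_le]
  intro g1 hg1 g2 hg2
  obtain ⟨a, haH, rfl⟩ := regAt_powerClosure hp n hreg H g1 hg1
  have hg2H : g2 ∈ H := powerClosure_le_self p n H hg2
  have h1 := key a haH g2⁻¹ (H.inv_mem hg2H)
  rw [inv_inv] at h1
  obtain ⟨X, hX⟩ : ∃ X, X = a ^ p ^ n := ⟨_, rfl⟩
  rw [← hX] at h1 ⊢
  have hXH : X ∈ H := by rw [hX]; exact H.pow_mem haH _
  have h2 := hΩn X hXH _ h1
  have e : X * (X⁻¹ * (g2 * X * g2⁻¹)) * X⁻¹ = ⁅g2, X⁆ := by
    rw [commutatorElement_def]; group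
  rw [e] at h2
  rw [← commutatorElement_inv]
  exact Subgroup.inv_mem _ h2

end Cfsg.Agent.Helper1
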