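import Mathlib
import Cfsg.Prelude.Def_GeometricClasses

set_option autoImplicit false

open scoped MatrixGroups

namespace Cfsg.Agent.Helper1.S5998p11

theorem p11 {F : Type*} [Field F] (w : F) (hw3 : w ^ 3 = 1) (R : Subgroup (GL (Fin 3) F)) (a b g : GL (Fin 3) F) (hRab : R = Subgroup.closure {a, b})
    (ha : (a : Matrix (Fin 3) (Fin 3) F) * (g : Matrix (Fin 3) (Fin 3) F) = (g : Matrix (Fin 3) (Fin 3) F) * !![1,0,0; 0,w,0; 0,0,w^2])
    (hb : (b : Matrix (Fin 3) (Fin 3) F) * (g : Matrix (Fin 3) (Fin 3) F) = (g : Matrix (Fin 3) (Fin 3) F) * !![0,0,1; 1,0,0; 0,1,0]) :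
    R ≤ Cfsg.Geo.specialLinear (Fin 3) F := by
  have hgdet : (g : Matrix (Fin 3) (Fin 3) F).det ≠ 0 :=
    ((Matrix.isUnit_iff_isUnit_det _).mp g.isUnit).ne_zero
  have key : ∀ (x : GL (Fin 3) F) (A : Matrix (Fin 3) (Fin 3) F), A.det = 1 →
      (x : Matrix (Fin 3) (Fin 3) F) * (g : Matrix (Fin 3) (Fin 3) F) =
        (g : Matrix (Fin 3) (Fin 3) F) * A →
      x ∈ Cfsg.Geo.specialLinear (Fin 3) F := by
    intro x A hA hx
    have h1 := congrArg Matrix.det hx
    rw [Matrix.det_mul, Matrix.det_mul, hA, mul_one] at h1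
    have h2 : (x : Matrix (Fin 3) (Fin 3) F).det = 1 := by
      have h3 : (x : Matrix (Fin 3) (Fin 3) F).det * (g : Matrix (Fin 3) (Fin 3) F).det =
          1 * (g : Matrix (Fin 3) (Fin 3) F).det := by rw [h1, one_mul]
      exact mul_right_cancel₀ hgdet h3
    show x ∈ (Matrix.GeneralLinearGroup.det : GL (Fin 3) F →* Fˣ).ker
    rw [MonoidHom.mem_ker]
    apply Units.ext
    rw [Matrix.GeneralLinearGroup.val_det_apply, Units.val_one]
    exact h2
  have hA : (!![1,0,0; 0,w,0; 0,0,w^2] : Matrix (Fin 3) (Fin 3) F).det = 1 := by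
    rw [Matrix.det_fin_three]
    simp
    rw [← hw3]; ring
  have hB : (!![0,0,1; 1,0,0; 0,1,0] : Matrix (Fin 3) (Fin 3) F).det = 1 := by
    rw [Matrix.det_fin_three]
    simp
  rw [hRab, Subgroup.closure_le]
  intro x hx
  rcases hx with rfl | hx
  · exact key _ _ hA ha
  · rw [Set.mem_singleton_iff] at hx
    rw [hx]
    exact key _ _ hB hb

end Cfsg.Agent.Helper1.S5998p11
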