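import Mathlib
import Cfsg.Prelude.Def_GeometricClasses

set_option autoImplicit false

open scoped MatrixGroups

namespace Cfsg.Agent.Helper1.S5998p9

theorem conj_comm {F : Type*} [Field F] (gm gi ym am A : Matrix (Fin 3) (Fin 3) F)
    (hgi : gm * gi = 1) (hig : gi * gm = 1) (ha : am * gm = gm * A) (hya : ym * am = am * ym) :
    (gi * ym * gm) * A = A * (gi * ym * gm) := by
  have h1 : gm * ((gi * ym * gm) * A) = gm * (A * (gi * ym * gm)) := by
    calc gm * ((gi * ym * gm) * A) = (gm * gi) * ym * (gm * A) := by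
          simp only [Matrix.mul_assoc]
      _ = ym * (am * gm) := by rw [hgi, Matrix.one_mul, ha]
      _ = (ym * am) * gm := by rw [Matrix.mul_assoc]
      _ = (am * ym) * gm := by rw [hya]
      _ = (am * gm) * (gi * ym * gm) := by
          simp only [Matrix.mul_assoc]
          rw [← Matrix.mul_assoc gm gi, hgi, Matrix.one_mul]
      _ = gm * (A * (gi * ym * gm)) := by rw [ha, Matrix.mul_assoc]
  have h2 : gi * (gm * ((gi * ym * gm) * A)) = gi * (gm * (A * (gi * ym * gm))) := by rw [h1]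
  rw [← Matrix.mul_assoc gi gm, ← Matrix.mul_assoc gi gm, hig, Matrix.one_mul, Matrix.one_mul] at h2
  exact h2

theorem p9 {F : Type*} [Field F] (w : F) (hw1 : w ≠ 1) (hw3 : w ^ 3 = 1) (a b g y : GL (Fin 3) F)
    (ha : (a : Matrix (Fin 3) (Fin 3) F) * (g : Matrix (Fin 3) (Fin 3) F) = (g : Matrix (Fin 3) (Fin 3) F) * !![1,0,0; 0,w,0; 0,0,w^2])
    (hb : (b : Matrix (Fin 3) (Fin 3) F) * (g : Matrix (Fin 3) (Fin 3) F) = (g : Matrix (Fin 3) (Fin 3) F) * !![0,0,1; 1,0,0; 0,1,0])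
    (hya : y * a = a * y) (hyb : y * b = b * y) :
    ∃ z : F, (y : Matrix (Fin 3) (Fin 3) F) = z • (1 : Matrix (Fin 3) (Fin 3) F) := by
  have hgi : (g : Matrix (Fin 3) (Fin 3) F) * ((g⁻¹ : GL (Fin 3) F) : Matrix (Fin 3) (Fin 3) F) = 1 := by
    rw [← Units.val_mul, mul_inv_cancel, Units.val_one]
  have hig : ((g⁻¹ : GL (Fin 3) F) : Matrix (Fin 3) (Fin 3) F) * (g : Matrix (Fin 3) (Fin 3) F) = 1 := by
    rw [← Units.val_mul, inv_mul_cancel, Units.val_one]
  have hyam : (y : Matrix (Fin 3) (Fin 3) F) * (a : Matrix (Fin 3) (Fin 3) F) =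
      (a : Matrix (Fin 3) (Fin 3) F) * (y : Matrix (Fin 3) (Fin 3) F) := by
    rw [← Units.val_mul, hya, Units.val_mul]
  have hybm : (y : Matrix (Fin 3) (Fin 3) F) * (b : Matrix (Fin 3) (Fin 3) F) =
      (b : Matrix (Fin 3) (Fin 3) F) * (y : Matrix (Fin 3) (Fin 3) F) := by
    rw [← Units.val_mul, hyb, Units.val_mul]
  have hYA := conj_comm _ _ _ _ _ hgi hig ha hyam
  have hYB := conj_comm _ _ _ _ _ hgi hig hb hybm
  obtain ⟨Y, hY⟩ : ∃ Y : Matrix (Fin 3) (Fin 3) F,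
      Y = ((g⁻¹ : GL (Fin 3) F) : Matrix (Fin 3) (Fin 3) F) * (y : Matrix (Fin 3) (Fin 3) F) *
        (g : Matrix (Fin 3) (Fin 3) F) := ⟨_, rfl⟩
  rw [← hY] at hYA hYB
  have hw0 : w ≠ 0 := by
    rintro rfl
    simp at hw3
  have hw2 : w ^ 2 ≠ 1 := by
    intro h2
    apply hw1
    have h3 : w ^ 3 = w ^ 2 * w := by ring
    rw [h3, h2, one_mul] at hw3
    exact hw3
  have hw21 : w ^ 2 ≠ w := by
    intro h2
    apply hw1
    have h3 : w * w = w * 1 := by rw [mul_one, ← sq]; exact h2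
    exact mul_left_cancel₀ hw0 h3
  have e01 : Y 0 1 * w = Y 0 1 := by
    simpa [Matrix.mul_apply, Fin.sum_univ_three] using congrFun (congrFun hYA 0) 1
  have e02 : Y 0 2 * w ^ 2 = Y 0 2 := by
    simpa [Matrix.mul_apply, Fin.sum_univ_three] using congrFun (congrFun hYA 0) 2
  have e10 : Y 1 0 = w * Y 1 0 := by
    simpa [Matrix.mul_apply, Fin.sum_univ_three] using congrFun (congrFun hYA 1) 0
  have e12 : Y 1 2 * w ^ 2 = w * Y 1 2 := by
    simpa [Matrix.mul_apply, Fin.sum_univ_three] using congrFun (congrFun hYA 1) 2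
  have e20 : Y 2 0 = w ^ 2 * Y 2 0 := by
    simpa [Matrix.mul_apply, Fin.sum_univ_three] using congrFun (congrFun hYA 2) 0
  have e21 : Y 2 1 * w = w ^ 2 * Y 2 1 := by
    simpa [Matrix.mul_apply, Fin.sum_univ_three] using congrFun (congrFun hYA 2) 1
  have f10 : Y 1 1 = Y 0 0 := by
    simpa [Matrix.mul_apply, Fin.sum_univ_three] using congrFun (congrFun hYB 1) 0
  have f21 : Y 2 2 = Y 1 1 := by
    simpa [Matrix.mul_apply, Fin.sum_univ_three] using congrFun (congrFun hYB 2) 1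
  have z01 : Y 0 1 = 0 := by
    have h1 : Y 0 1 * (w - 1) = 0 := by rw [mul_sub, mul_one, e01, sub_self]
    exact (mul_eq_zero.mp h1).resolve_right (sub_ne_zero.mpr hw1)
  have z02 : Y 0 2 = 0 := by
    have h1 : Y 0 2 * (w ^ 2 - 1) = 0 := by rw [mul_sub, mul_one, e02, sub_self]
    exact (mul_eq_zero.mp h1).resolve_right (sub_ne_zero.mpr hw2)
  have z10 : Y 1 0 = 0 := by
    have h1 : Y 1 0 * (w - 1) = 0 := by rw [mul_sub, mul_one, mul_comm, ← e10, sub_self]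
    exact (mul_eq_zero.mp h1).resolve_right (sub_ne_zero.mpr hw1)
  have z12 : Y 1 2 = 0 := by
    have h1 : Y 1 2 * (w ^ 2 - w) = 0 := by rw [mul_sub, e12, mul_comm, sub_self]
    exact (mul_eq_zero.mp h1).resolve_right (sub_ne_zero.mpr hw21)
  have z20 : Y 2 0 = 0 := by
    have h1 : Y 2 0 * (w ^ 2 - 1) = 0 := by rw [mul_sub, mul_one, mul_comm, ← e20, sub_self]
    exact (mul_eq_zero.mp h1).resolve_right (sub_ne_zero.mpr hw2)
  have z21 : Y 2 1 = 0 := by
    have h1 : Y 2 1 * (w ^ 2 - w) = 0 := by rw [mul_sub, e21, mul_comm, sub_self]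
    exact (mul_eq_zero.mp h1).resolve_right (sub_ne_zero.mpr hw21)
  have hYz : Y = Y 0 0 • (1 : Matrix (Fin 3) (Fin 3) F) := by
    ext i j
    fin_cases i <;> fin_cases j <;>
      simp [z01, z02, z10, z12, z20, z21, f10, f21]
  obtain ⟨z, hz⟩ : ∃ z : F, z = Y 0 0 := ⟨_, rfl⟩
  rw [← hz] at hYz
  refine ⟨z, ?_⟩
  have h1 : (y : Matrix (Fin 3) (Fin 3) F) =
      (g : Matrix (Fin 3) (Fin 3) F) * Y * ((g⁻¹ : GL (Fin 3) F) : Matrix (Fin 3) (Fin 3) F) := by
    rw [hY]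
    simp only [Matrix.mul_assoc]
    rw [hgi, Matrix.mul_one, ← Matrix.mul_assoc, hgi, Matrix.one_mul]
  rw [h1, hYz, Matrix.mul_smul, Matrix.mul_one, Matrix.smul_mul, hgi]

end Cfsg.Agent.Helper1.S5998p9
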